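import Cfsg.Agent.Fgs2.TwoPrimes
import Cfsg.Agent.Fgs2.AutP
import Cfsg.Agent.Small.Rec
import Cfsg.Agent.Perm.SymOrd

/-! Groups with the order and the element orders of an alternating group. -/

open Subgroup
open scoped IsMulCommutative

namespace CF.Fgs2

variable {G : Type*} [Group G] [Finite G] {p r : ℕ}

theorem exists_order_mul (hp : p.Prime) (hr : r.Prime) (ne : p ≠ r) (H : Subgroup G) [H.Normal]
    (h1 : p ∣ Nat.card H) (h2 : r ∣ H.index)
    (h : ∀ P : Subgroup G, IsPGroup p P → ¬ r ∣ Nat.card (MulAut P)) :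
    ∃ g : G, orderOf g = p * r := by
  haveI := Fact.mk hp
  haveI := Fact.mk hr
  obtain ⟨P⟩ : Nonempty (Sylow p H) := inferInstance
  set Q := (P : Subgroup H).map H.subtype with hQ
  have e := P.normalizer_sup_eq_top
  have d1 : r ∣ Nat.card (normalizer (Q : Set G)) := by
    rw [← relIndex_top_right, ← e, relIndex_sup_right] at h2
    exact h2.trans (relIndex_dvd_card _ _)
  have d2 : r ∣ Nat.card (Q.normalizerMonoidHom).ker := by
    have := (Q.normalizerMonoidHom).ker.card_mul_index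
    rw [← this] at d1
    refine (hr.dvd_mul.1 d1).resolve_right fun d => h Q (P.2.map _) ?_
    rw [index_ker] at d
    exact d.trans (card_subgroup_dvd_card _)
  obtain ⟨y, hy⟩ := exists_prime_orderOf_dvd_card' r d2
  have d3 : p ∣ Nat.card Q := by
    rw [hQ, card_map_of_injective H.subtype_injective]
    exact P.dvd_card_of_dvd_card h1
  obtain ⟨x, hx⟩ := exists_prime_orderOf_dvd_card' p d3
  have c : Commute (x : G) (y : G) := by
    have := congrArg Subtype.val (DFunLike.congr_fun y.2 x)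
    exact (mul_inv_eq_iff_eq_mul.1 this).symm
  refine ⟨x * y, ?_⟩
  rw [c.orderOf_mul_eq_mul_orderOf_of_coprime, orderOf_coe, orderOf_coe, orderOf_coe, hx, hy]
  rw [orderOf_coe, orderOf_coe, orderOf_coe, hx, hy]
  exact (Nat.coprime_primes hp hr).2 ne

theorem not_dvd_card_aut (hp : p.Prime) (hr : r.Prime) (ne : p ≠ r) {k : ℕ}
    (h : ¬ p ^ (k + 1) ∣ Nat.card G) (h' : ∀ i, 1 ≤ i → i ≤ k → ¬ r ∣ p ^ i - 1)
    (P : Subgroup G) (hP : IsPGroup p P) : ¬ r ∣ Nat.card (MulAut P) := by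
  haveI := Fact.mk hp
  obtain ⟨n, hn⟩ := IsPGroup.iff_card.1 hP
  obtain ⟨s, hs⟩ := hP.index (frattini P)
  have l1 : s ≤ n := (Nat.pow_dvd_pow_iff_le_right hp.one_lt).1 (hs ▸ hn ▸ index_dvd_card _)
  have l2 : n ≤ k := by
    by_contra hh
    exact h ((pow_dvd_pow p (by omega)).trans (hn ▸ P.card_subgroup_dvd_card))
  have np : ∀ m, ¬ r ∣ p ^ m := fun m d =>
    ne ((Nat.prime_dvd_prime_iff_eq hr hp).1 (hr.dvd_of_dvd_pow d)).symm
  intro d
  rcases hr.dvd_mul.1 (d.trans (card_mulAut_dvd hn hs)) with d | d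
  · exact np _ d
  obtain ⟨i, hi, d⟩ := (Prime.dvd_finset_prod_iff hr.prime _).1 d
  rw [Finset.mem_range] at hi
  have : p ^ s - p ^ i = p ^ i * (p ^ (s - i) - 1) := by
    rw [Nat.mul_sub_one, ← pow_add, Nat.add_sub_cancel' hi.le]
  rw [this] at d
  exact (hr.dvd_mul.1 d).elim (np _) (h' _ (by omega) (by omega))

theorem exists_simple_section (hp : p.Prime) (h1 : p ∣ Nat.card G) (h2 : ¬ p ^ 2 ∣ Nat.card G) :
    ∃ (N H : Subgroup G) (_ : N.Normal), H.Normal ∧ N < H ∧ IsSimpleGroup (H ⧸ N.subgroupOf H) ∧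
      p ∣ Nat.card (H ⧸ N.subgroupOf H) ∧ ∀ r : ℕ, r.Prime → r ≠ p → r ∣ Nat.card G → ¬ r ∣ p - 1 →
        (∀ P : Subgroup G, IsPGroup r P → ¬ p ∣ Nat.card (MulAut P)) →
        (∀ g : G, orderOf g ≠ p * r) → r ∣ Nat.card (H ⧸ N.subgroupOf H) := by
  haveI := Fact.mk hp
  obtain ⟨N, -, hN⟩ := exists_maximal_ge_of_wellFoundedGT
    (fun N : Subgroup G => N.Normal ∧ ¬ p ∣ Nat.card N) ⊥ ⟨inferInstance, by simp [hp.ne_one]⟩
  haveI := hN.1.1
  have d0 : p ∣ N.index := (hp.dvd_mul.1 (N.card_mul_index ▸ h1)).resolve_left hN.1.2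
  haveI : Nontrivial (G ⧸ N) := by
    rw [← Finite.one_lt_card_iff_nontrivial]
    exact hp.one_lt.trans_le (Nat.le_of_dvd Nat.card_pos d0)
  obtain ⟨M, hM⟩ := CF.Solv.exists_isMinNormal (G := G ⧸ N)
  haveI := hM.1
  set H := M.comap (QuotientGroup.mk' N) with hH
  have le : N ≤ H := fun x hx => by
    rw [hH, mem_comap, QuotientGroup.mk'_apply, (QuotientGroup.eq_one_iff x).2 hx]
    exact one_mem _
  have em : H.map (QuotientGroup.mk' N) = M :=
    map_comap_eq_self_of_surjective (QuotientGroup.mk'_surjective N) M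
  have lt : N < H := lt_of_le_of_ne le fun e => hM.2.1 (by
    rw [← em, ← e, QuotientGroup.map_mk'_self])
  let e : (H ⧸ N.subgroupOf H) ≃* M :=
    (QuotientGroup.quotientMulEquivOfEq (by
      rw [← MonoidHom.comap_ker, QuotientGroup.ker_mk']; rfl)).trans
    ((QuotientGroup.quotientKerEquivRange ((QuotientGroup.mk' N).comp H.subtype)).trans
      (MulEquiv.subgroupCongr (by rw [MonoidHom.range_comp, range_subtype, em])))
  have c : Nat.card N * Nat.card (H ⧸ N.subgroupOf H) = Nat.card H := by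
    rw [← (N.subgroupOf H).card_mul_index, Nat.card_congr (subgroupOfEquivOfLe le).toEquiv]; rfl
  have pH : p ∣ Nat.card H := by
    by_contra hh
    exact lt.not_ge (hN.2 ⟨inferInstance, hh⟩ le)
  have pM : p ∣ Nat.card (H ⧸ N.subgroupOf H) := (hp.dvd_mul.1 (c ▸ pH)).resolve_left hN.1.2
  haveI := CF.Small.simple_of_minNormal hM (Nat.card_congr e.toEquiv ▸ pM)
    fun d => h2 (d.trans N.index_dvd_card)
  refine ⟨N, H, inferInstance, inferInstance, lt, e.isSimpleGroup, pM, fun r hr ne d h3 h4 h5 => ?_⟩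
  rw [← H.card_mul_index, ← c] at d
  rcases hr.dvd_mul.1 d with d | d
  · refine (hr.dvd_mul.1 d).resolve_left fun d => ?_
    obtain ⟨g, hg⟩ := exists_order_mul hr hp ne N d d0 h4
    exact h5 g (by rw [hg, mul_comm])
  · obtain ⟨g, hg⟩ := exists_order_mul hp hr ne.symm H pH d (not_dvd_card_aut hp hr ne.symm
      (k := 1) h2 fun i a b => by rwa [le_antisymm b a, pow_one])
    exact absurd hg (h5 g)

theorem not_comm_of_two_primes {K : Type*} [Group K] [Finite K] [IsSimpleGroup K] (hp : p.Prime)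
    (hr : r.Prime) (ne : p ≠ r) (h1 : p ∣ Nat.card K) (h2 : r ∣ Nat.card K) :
    ¬ IsMulCommutative K := fun _ => by
  have := IsSimpleGroup.prime_card (α := K)
  exact ne (((Nat.prime_dvd_prime_iff_eq hp this).1 h1).trans
    ((Nat.prime_dvd_prime_iff_eq hr this).1 h2).symm)

theorem not_mem_spec {n : ℕ} (hp : p.Prime) (hr : r.Prime) (ne : p ≠ r) (h : n < p + r)
    (h' : n < p * r) : p * r ∉ Set.range (orderOf : alternatingGroup (Fin n) → ℕ) := by
  rw [CF.Perm.mem_range_orderOf_alt]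
  rintro ⟨m, h1, h2, -, h3⟩
  have ex : ∀ s : ℕ, s.Prime → s ∣ m.lcm → ∃ a ∈ m, s ∣ a := fun s hs d =>
    hs.prime.exists_mem_multiset_dvd (d.trans (Multiset.lcm_dvd.2 fun _ => Multiset.dvd_prod))
  obtain ⟨a, ha, da⟩ := ex p hp (h3 ▸ dvd_mul_right p r)
  obtain ⟨b, hb, db⟩ := ex r hr (h3 ▸ dvd_mul_left r p)
  by_cases e : a = b
  · subst e
    have := Nat.le_of_dvd (by have := h2 a ha; omega)
      (((Nat.coprime_primes hp hr).2 ne).mul_dvd_of_dvd_of_dvd da db)
    have := Multiset.single_le_sum (fun _ _ => Nat.zero_le _) a ha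
    omega
  · obtain ⟨m', rfl⟩ := Multiset.exists_cons_of_mem ha
    have hb' := (Multiset.mem_cons.1 hb).resolve_left (Ne.symm e)
    have := Multiset.single_le_sum (fun _ _ => Nat.zero_le _) b hb'
    have := Nat.le_of_dvd (by have := h2 a ha; omega) da
    have := Nat.le_of_dvd (by have := h2 b hb; omega) db
    rw [Multiset.sum_cons] at h1
    omega

theorem two_mul_card_alt {n : ℕ} (hn : 2 ≤ n) :
    2 * Nat.card (alternatingGroup (Fin n)) = n.factorial := by
  haveI : Nontrivial (Fin n) := Fin.nontrivial_iff_two_le.2 hn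
  rw [two_mul_nat_card_alternatingGroup, Nat.card_perm, Nat.card_fin]

theorem big_prime {n : ℕ} (hn : 5 ≤ n) (hp : p.Prime) (h1 : n < 2 * p) (h2 : p ≤ n) :
    p ∣ Nat.card (alternatingGroup (Fin n)) ∧ ¬ p ^ 2 ∣ Nat.card (alternatingGroup (Fin n)) := by
  have e := two_mul_card_alt (n := n) (by omega)
  refine ⟨((Nat.coprime_primes hp Nat.prime_two).2 (by omega)).dvd_of_dvd_mul_left
    (e ▸ (hp.dvd_factorial.2 h2)), fun d => ?_⟩
  have d2 : p ^ 2 ∣ n.factorial := e ▸ d.mul_left 2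
  rw [hp.pow_dvd_factorial_iff (b := 2) (Nat.log_lt_of_lt_pow (by omega) (by nlinarith))] at d2
  have : n / p < 2 := (Nat.div_lt_iff_lt_mul hp.pos).2 h1
  simp at d2
  omega

theorem alt_section {n : ℕ} (hn : 11 ≤ n) (hcard : Nat.card G = Nat.card (alternatingGroup (Fin n)))
    (hspec : Set.range (orderOf : G → ℕ) = Set.range (orderOf : alternatingGroup (Fin n) → ℕ)) :
    ∃ (N H : Subgroup G) (_ : N.Normal), H.Normal ∧ N < H ∧
      IsSimpleGroup (H ⧸ N.subgroupOf H) ∧ ¬ IsMulCommutative (H ⧸ N.subgroupOf H) ∧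
      ∀ p : ℕ, p.Prime → n < 2 * p → p ≤ n → p ∣ Nat.card (H ⧸ N.subgroupOf H) := by
  obtain ⟨p, q, hp, hq, pq, p1, q1⟩ := exists_two_primes hn
  have nd : ∀ p r : ℕ, p.Prime → r.Prime → n < 2 * p → p ≤ n → n < 2 * r → ¬ r ∣ p - 1 := by
    rintro p r hp hr a b c ⟨k, hk⟩
    have o1 := hp.eq_two_or_odd
    have o2 := hr.eq_two_or_odd
    rcases k with _ | _ | k
    · omega
    · omega
    · have : p = r * (k + 1 + 1) + 1 := by omega
      nlinarith
  obtain ⟨b1, b2⟩ := big_prime (n := n) (by omega) hp p1 (by omega)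
  obtain ⟨N, H, _, nH, lt, s, d, h⟩ := exists_simple_section hp (hcard ▸ b1) (hcard ▸ b2)
  have all : ∀ r : ℕ, r.Prime → n < 2 * r → r ≤ n → r ∣ Nat.card (H ⧸ N.subgroupOf H) := by
    intro r hr r1 r2
    by_cases e : r = p
    · rwa [e]
    obtain ⟨c1, c2⟩ := big_prime (n := n) (by omega) hr r1 r2
    refine h r hr e (hcard ▸ c1) (nd p r hp hr p1 (by omega) r1) (not_dvd_card_aut hr hp e (k := 1)
      (hcard ▸ c2) fun i a b => by
        rw [le_antisymm b a, pow_one]; exact nd r p hr hp r1 r2 p1) fun g hg => ?_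
    exact not_mem_spec hp hr (Ne.symm e) (n := n) (by omega) (by nlinarith) (hspec ▸ ⟨g, hg⟩)
  exact ⟨N, H, inferInstance, nH, lt, s, not_comm_of_two_primes hp hq pq.ne d (all q hq (by omega) q1), all⟩

theorem not_sol_of_pair (hp : p.Prime) (hr : r.Prime) (ne : r ≠ p) (h1 : p ∣ Nat.card G)
    (h2 : ¬ p ^ 2 ∣ Nat.card G) (h3 : r ∣ Nat.card G) (h4 : ¬ r ^ 3 ∣ Nat.card G)
    (h5 : ¬ r ∣ p - 1) (h6 : ¬ p ∣ r - 1) (h7 : ¬ p ∣ r ^ 2 - 1) (h8 : ∀ g : G, orderOf g ≠ p * r) :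
    ¬ Group.IsSolvable G := fun _ => by
  obtain ⟨N, H, _, nH, lt, s, d, h⟩ := exists_simple_section hp h1 h2
  refine not_comm_of_two_primes hp hr ne.symm d (h r hr ne h3 h5 (not_dvd_card_aut hr hp ne (k := 2)
    h4 fun i a b => ?_) h8) ⟨⟨IsSimpleGroup.comm_iff_isSolvable.2 inferInstance⟩⟩
  interval_cases i
  · rwa [pow_one]
  · exact h7

end CF.Fgs2
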