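/-
Irreducible representations over an algebraically closed field: Fourier inversion and the
dimension for groups of prime power order.
-/
import Cfsg.Agent.Fgs1.HHMain
set_option autoImplicit false
set_option linter.unusedSectionVars false

namespace CF.Fgs2
open Module Subgroup CF.BG CF.Fgs1
open scoped commutatorElement

variable {Γ : Type*} [Group Γ] [Finite Γ] {k : Type*} [Field k] [IsAlgClosed k]

theorem fourier {W : Type*} [AddCommGroup W] [Module k W] [FiniteDimensional k W] [Nontrivial W]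
    {Q : Subgroup Γ} {ρ : Γ → End k W} (h : RepOn Q ρ)
    (irr : ∀ U : Submodule k W, U ≠ ⊥ → Stab ρ Q U → U = ⊤) (A : End k W) :
    (finrank k W : k) • ∑ g ∈ fs Q, LinearMap.trace k W (A * ρ g⁻¹) • ρ g = ((♯Q : ℕ) : k) • A := by
  obtain ⟨t, rfl⟩ := (dualTensorHom_bijective (R := k) (M := W) (N := W)).2 A
  induction t using TensorProduct.induction_on with
  | zero => simp
  | add a b ha hb => simp only [map_add, add_mul, add_smul, Finset.sum_add_distrib, smul_add, ha, hb]
  | tmul φ v =>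
    ext w
    obtain ⟨c, hc⟩ := RepOn.schur irr (T := avgC Q ρ (φ.smulRight w)) fun n hn => h.avgC_comm _ hn
    have h1 : (finrank k W : k) * c = (♯Q : ℕ) * φ w := by
      have := congrArg (LinearMap.trace k W) (show avgC Q ρ (φ.smulRight w) = c • 1 from
        LinearMap.ext hc)
      rw [map_smul, LinearMap.trace_one, avgC_apply, map_sum, sum_fs_congr (g := fun _ => φ w)
        (fun m hm => by rw [LinearMap.trace_mul_comm, ← mul_assoc, h.inv_mul hm, one_mul,
          LinearMap.trace_smulRight]), sum_fs_const] at this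
      rw [mul_comm, ← smul_eq_mul, ← this, nsmul_eq_mul]
    have h2 := hc v
    rw [avgC_apply, LinearMap.sum_apply] at h2
    rw [LinearMap.smul_apply, LinearMap.smul_apply, dualTensorHom_apply, smul_smul, ← h1,
      mul_smul, ← h2, LinearMap.sum_apply]
    congr 1
    refine Finset.sum_congr rfl fun g _ => ?_
    rw [show dualTensorHom k W W (φ ⊗ₜ v) * ρ g⁻¹ = (φ ∘ₗ ρ g⁻¹).smulRight v by ext; simp,
      LinearMap.trace_smulRight]
    simp

theorem finrank_eq_pow.{v} {q : ℕ} (hq : q.Prime) (n : ℕ) : ∀ (Q : Subgroup Γ), ♯Q ≤ n →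
    PiGrp {q} Q → ∀ {W : Type v} [AddCommGroup W] [Module k W] [FiniteDimensional k W]
      [Nontrivial W] {ρ : Γ → End k W}, RepOn Q ρ →
      (∀ U : Submodule k W, U ≠ ⊥ → Stab ρ Q U → U = ⊤) → ∃ b, finrank k W = q ^ b := by
  induction n with
  | zero => intro Q h; have := Nat.card_pos (α := Q); omega
  | succ n ih =>
    intro Q hn pi W _ _ _ _ ρ h irr
    haveI := Fact.mk hq
    by_cases hS : Q ≤ Scalz Q ρ
    · obtain ⟨w, hw⟩ := exists_ne (0 : W)
      refine ⟨0, ?_⟩
      rw [← finrank_top, ← irr (k ∙ w) (by simpa using hw) fun g hg u hu =>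
        ((h.mem_scalz le_rfl).1 (hS hg)).2.mem hu, finrank_span_singleton hw, pow_zero]
    have nS : Q ≤ 𝐍 (Scalz Q ρ) := le_norm_iff.2 fun g hg z hz => by
      rw [h.mem_scalz le_rfl] at hz ⊢
      exact ⟨conj_mem_of_norm (le_norm_self Q hg) hz.1, h.conj_scal hg hz.1 hz.2 ▸ hz.2⟩
    obtain ⟨a, ha, haS, hac, haq⟩ : ∃ a ∈ Q, a ∉ Scalz Q ρ ∧ (∀ g ∈ Q, ⁅g, a⁆ ∈ Scalz Q ρ) ∧
        a ^ q ∈ Scalz Q ρ := by
      have h1 := (pi.qt (Scalz Q ρ)).center_ne_bot (fun e => hS ((qt_eq_bot nS).1 e))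
      obtain ⟨z, hz⟩ := exists_prime_orderOf_dvd_card' q
        ((PiGrp.inf_left (pi.qt (Scalz Q ρ))).dvd_card h1)
      obtain ⟨a, ha, na, e⟩ := mem_qt.1 z.2.1
      rw [← orderOf_coe, ← e] at hz
      refine ⟨a, ha, fun c => hq.one_lt.ne (by rw [← hz, qe_of_mem c, orderOf_one]), fun g hg => ?_,
        ?_⟩
      · rw [← qe_eq_one (nS (h.comm_mem hg ha)), qe_comm (nS hg) na,
          commutatorElement_eq_one_iff_mul_comm, e]
        exact mem_cent.1 z.2.2 _ (qe_mem_qt hg (nS hg))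
      · rw [← qe_eq_one (pow_mem na q), qe_pow na, ← hz, pow_orderOf_eq_one]
    obtain ⟨w₀, hw₀⟩ := exists_ne (0 : W)
    have hc : ∀ g : Q, ∃ c : k, ∀ w, ρ g (ρ a w) = c • ρ a (ρ g w) := fun g => by
      obtain ⟨c, hc⟩ := ((h.mem_scalz le_rfl).1 (hac g g.2)).2
      exact ⟨c, fun w => by rw [← End.mul_apply, h.mul_eq_comm g.2 ha, End.mul_apply, hc]; rfl⟩
    choose c hc using hc
    have hu : ∀ (g : Q) (d : k), (∀ w, ρ g (ρ a w) = d • ρ a (ρ g w)) → c g = d := fun g d e =>
      smul_left_injective k (h.ne_zero ha (h.ne_zero g.2 hw₀)) ((hc g w₀).symm.trans (e w₀))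
    let χ : Q →* k :=
      { toFun := c
        map_one' := hu 1 1 fun w => by simp [h.one_apply]
        map_mul' := fun x y => hu _ _ fun w => by
          rw [coe_mul, h.mul_apply x.2 y.2, h.mul_apply x.2 y.2, hc, map_smul, hc, smul_smul,
            mul_comm] }
    have hχ : ∀ g, χ g ^ q = 1 := fun g => by
      obtain ⟨d, hd⟩ := ((h.mem_scalz le_rfl).1 haq).2
      have h1 : ∀ i : ℕ, ρ g ((ρ a ^ i) w₀) = c g ^ i • (ρ a ^ i) (ρ g w₀) := fun i => by
        induction i with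
        | zero => simp
        | succ i ih => rw [pow_succ', End.mul_apply, hc, ih, map_smul, smul_smul, ← pow_succ']; rfl
      have h2 := h1 q
      rw [← h.pow ha, ← End.mul_apply, ← IsScal.comm ⟨d, hd⟩, End.mul_apply] at h2
      exact smul_left_injective k (h.ne_zero (pow_mem ha q) (h.ne_zero g.2 hw₀))
        (h2.symm.trans (one_smul _ _).symm)
    obtain ⟨g, hg⟩ : ∃ g, χ g ≠ 1 := by
      by_contra e
      push Not at e
      exact haS ((h.mem_scalz le_rfl).2 ⟨ha, RepOn.schur irr fun n hn => LinearMap.ext fun w => by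
        rw [End.mul_apply, hc ⟨n, hn⟩, show c ⟨n, hn⟩ = 1 from e _, one_smul]; rfl⟩)
    have hζ : IsPrimitiveRoot (χ g) q := by
      have := IsPrimitiveRoot.orderOf (χ g)
      rwa [orderOf_eq_prime (hχ g) hg] at this
    haveI : NeZero q := ⟨hq.ne_zero⟩
    let M := χ.ker.map Q.subtype
    have hM : M < Q := lt_of_le_of_ne (map_subtype_le _) fun e => by
      obtain ⟨x, hx, e'⟩ := e.ge g.2
      exact hg (Subtype.ext e' ▸ hx)
    obtain ⟨μ, hμ⟩ := End.exists_eigenvalue (ρ a)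
    have hμ0 : μ ≠ 0 := by
      rintro rfl
      obtain ⟨v, hv⟩ := hμ.exists_hasEigenvector
      exact h.ne_zero ha hv.2 (by simpa using hv.apply_eq_smul)
    have hev : ∀ (x : Q), ∀ v ∈ (ρ a).eigenspace μ, ρ x v ∈ (ρ a).eigenspace ((χ x)⁻¹ * μ) := by
      intro x v hv
      rw [End.mem_eigenspace_iff] at hv ⊢
      have h0 : χ x ≠ 0 := fun e => by simpa [e, hq.ne_zero] using hχ x
      rw [mul_smul, ← map_smul, ← hv, hc, smul_smul, show (χ x)⁻¹ * c x = 1 from inv_mul_cancel₀ h0,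
        one_smul]
    obtain ⟨U, hU, hU0, sU, mU⟩ := exists_minimal_stab ρ M hμ (by
      rintro _ ⟨x, hx, rfl⟩ v hv
      simpa [show χ x = 1 from hx] using hev x v hv)
    obtain ⟨σ, hσ, e⟩ := (h.mono hM.le).restrict sU
    haveI : Nontrivial U := Submodule.nontrivial_iff_ne_bot.mpr hU0
    obtain ⟨b, hb⟩ := ih M (by have := card_lt hM; omega) (pi.le hM.le) hσ
      (RepOn.irr_restrict e mU)
    let Φ : (Fin q → U) →ₗ[k] W :=
      ∑ i : Fin q, (ρ (g ^ (i : ℕ) : Q) ∘ₗ U.subtype) ∘ₗ LinearMap.proj i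
    have hΦ : ∀ v, Φ v = ∑ i : Fin q, ρ (g ^ (i : ℕ) : Q) (v i) := fun v => by simp [Φ]
    have hr : ∀ (x : Q), ∀ u ∈ U, ρ x u ∈ LinearMap.range Φ := fun x u hu => by
      obtain ⟨i, hi, e'⟩ := hζ.eq_pow_of_pow_eq_one (hχ x)
      have hm : ((g ^ i)⁻¹ * x : Q).1 ∈ M := ⟨(g ^ i)⁻¹ * x, show χ _ = 1 by
        rw [map_mul, ← e', ← map_pow χ g i, ← map_mul, inv_mul_cancel, map_one], rfl⟩
      refine ⟨Pi.single ⟨i, hi⟩ ⟨_, sU _ hm u hu⟩, ?_⟩
      rw [hΦ, Finset.sum_eq_single ⟨i, hi⟩ (fun j _ hj => by simp [Pi.single_eq_of_ne hj])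
        (by simp), Pi.single_eq_same, ← h.mul_apply (g ^ i).2 (hM.le hm), ← coe_mul,
        mul_inv_cancel_left]
    have hsurj : LinearMap.range Φ = ⊤ := by
      refine irr _ (fun e => hU0 (eq_bot_iff.2 fun u hu => ?_)) ?_
      · simpa [e, h.one_apply] using hr 1 u hu
      · rintro x hx _ ⟨v, rfl⟩
        rw [hΦ, map_sum]
        refine Submodule.sum_mem _ fun i _ => ?_
        rw [← h.mul_apply hx (g ^ (i : ℕ)).2]
        exact hr (⟨x, hx⟩ * g ^ (i : ℕ)) _ (v i).2
    have hinj : LinearMap.ker Φ = ⊥ := by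
      rw [LinearMap.ker_eq_bot']
      intro v hv
      have h1 := ((ρ a).eigenspaces_iSupIndep.comp
        (f := fun i : Fin q => (χ (g ^ (i : ℕ)))⁻¹ * μ) fun i j e => Fin.ext
          (hζ.pow_inj i.2 j.2 (by simpa [hμ0] using e)))
      funext i
      by_contra c
      exact h.ne_zero (g ^ (i : ℕ)).2 (fun e => c (Subtype.ext e))
        ((iSupIndep_iff_finsetSum_eq_zero_imp_eq_zero _).1 h1 Finset.univ _
          (fun i _ => hev _ _ (hU (v i).2)) (hΦ v ▸ hv) i (Finset.mem_univ i))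
    refine ⟨b + 1, ?_⟩
    have := Φ.finrank_range_add_finrank_ker
    rw [hsurj, hinj, finrank_top, finrank_bot, add_zero, finrank_pi_fintype] at this
    simp [this, hb, pow_succ']

theorem finrank_ker_add {M : Type*} [AddCommGroup M] [Module k M] [FiniteDimensional k M]
    {U : End k M} {n : ℕ} (h : U ^ (n + 1) = 0) :
    finrank k (LinearMap.ker U) + n * finrank k (LinearMap.range (U ^ n)) ≤ finrank k M := by
  have key : ∀ i ≤ n, finrank k (LinearMap.range (U ^ (i + 1))) +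
      finrank k (LinearMap.range (U ^ n)) ≤ finrank k (LinearMap.range (U ^ i)) := by
    intro i hi
    rw [← (U.domRestrict (LinearMap.range (U ^ i))).finrank_range_add_finrank_ker,
      LinearMap.range_domRestrict, pow_succ', End.mul_eq_comp, LinearMap.range_comp]
    refine Nat.add_le_add_left ?_ _
    have l : LinearMap.range (U ^ n) ≤ LinearMap.range (U ^ i) := by
      obtain ⟨j, rfl⟩ := Nat.exists_eq_add_of_le hi
      rw [pow_add]; exact LinearMap.range_comp_le_range _ _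
    rw [← (Submodule.comapSubtypeEquivOfLe l).finrank_eq]
    refine Submodule.finrank_mono ?_
    rintro ⟨x, hx⟩ ⟨y, rfl⟩
    exact LinearMap.congr_fun ((pow_succ' U n).symm.trans h) y
  have h1 : ∀ j ≤ n, finrank k (LinearMap.range (U ^ (j + 1))) +
      j * finrank k (LinearMap.range (U ^ n)) ≤ finrank k (LinearMap.range (U ^ 1)) := by
    intro j hj
    induction j with
    | zero => simp
    | succ j ih => have := key _ hj; have := ih (by omega); rw [add_mul j]; omega
  have h2 := h1 n le_rfl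
  have h3 := U.finrank_range_add_finrank_ker
  rw [pow_one] at h2
  omega

theorem sum_mem_range_of_free {α M : Type*} [Finite α] [AddCommGroup M] [Module k M]
    (σ : Equiv.Perm α) {n : ℕ} (hn : 0 < n) (hσ : σ ^ n = 1) (S : Finset α) (hS : ∀ a ∈ S, σ a ∈ S)
    (hf : ∀ a ∈ S, ∀ i, 0 < i → i < n → (σ ^ i) a ≠ a) (T : End k M) (F : α → M)
    (hF : ∀ a ∈ S, F (σ a) = T (F a)) :
    ∑ a ∈ S, F a ∈ LinearMap.range (∑ i ∈ Finset.range n, T ^ i) := by
  classical
  have hS' : ∀ a ∈ S, ∀ i : ℕ, (σ ^ i) a ∈ S ∧ F ((σ ^ i) a) = (T ^ i) (F a) := fun a ha i => by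
    induction i with
    | zero => simpa using ha
    | succ i ih =>
      rw [pow_succ', pow_succ', Equiv.Perm.mul_apply]
      exact ⟨hS _ ih.1, by rw [hF _ ih.1, ih.2]; rfl⟩
  let f := Quotient.mk (Equiv.Perm.SameCycle.setoid σ)
  rw [← Finset.sum_fiberwise_of_maps_to (g := f) (t := S.image f)
    fun a ha => Finset.mem_image_of_mem f ha]
  refine Submodule.sum_mem _ fun c hc => ?_
  obtain ⟨a, ha, rfl⟩ := Finset.mem_image.1 hc
  refine ⟨F a, ?_⟩
  rw [LinearMap.sum_apply]
  refine Finset.sum_bij (fun i _ => (σ ^ i) a) (fun i _ => Finset.mem_filter.2 ⟨(hS' a ha i).1,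
    Quotient.sound (Equiv.Perm.sameCycle_pow_left.2 (Equiv.Perm.SameCycle.refl _ _))⟩)
    (fun i hi j hj e => ?_) (fun b hb => ?_) fun i _ => (hS' a ha i).2.symm
  · rw [Finset.mem_range] at hi hj
    by_contra c
    wlog l : i < j generalizing i j
    · exact this j hj i hi e.symm (Ne.symm c) (by omega)
    refine hf a ha (j - i) (by omega) (by omega) ((σ ^ i).injective ?_)
    rw [← Equiv.Perm.mul_apply, ← pow_add, e]
    congr 2
    omega
  · obtain ⟨i, hi, e⟩ := (Quotient.exact (Finset.mem_filter.1 hb).2).symm.exists_pow_eq'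
    exact ⟨i, Finset.mem_range.2 (hi.trans_le (orderOf_le_of_pow_eq_one hn hσ)), e⟩

end CF.Fgs2
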