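import Cfsg.Agent.Fgs2.Isa9

/-!
The order of a Sylow subgroup of a `p`-solvable linear group modulo `O_p`.
-/

set_option autoImplicit false

namespace CF.Fgs2.Isa

open Cfsg Subgroup CF.BG CF.Clifford CF.Char

universe u

variable {G : Type u} [Group G] [Finite G] {χ : G → ℂ} {d n p r : ℕ}

theorem map_indFun [Fintype G] (σ : ℂ →+* ℂ) {H : Subgroup G} {θ : H → ℂ} (h : ∀ x, σ (θ x) = θ x)
    (g : G) : σ (indFun H θ g) = indFun H θ g := by
  simp only [indFun_apply, map_mul, map_inv₀, map_natCast, map_sum, extendByZero_apply]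
  congr 2 with x
  split_ifs <;> simp [h]

theorem exists_rat_ext {N : Type*} [Group N] [Finite N] (E : NormalEmb N G)
    (c : E.index.Coprime (Nat.card N)) (hχ : IsCharacter G χ) :
    ∃ ψ, IsCharacter G ψ ∧ (∀ y, ψ (E.ι y) = χ (E.ι y)) ∧
      ∀ σ : ℂ →+* ℂ, (∀ z, z ^ Nat.card N = 1 → σ z = z) → ∀ g, σ (ψ g) = ψ g := by
  classical
  have := Fintype.ofFinite G
  have := Fintype.ofFinite N
  refine char_induction (P := fun χ => ∃ ψ, IsCharacter G ψ ∧ (∀ y, ψ (E.ι y) = χ (E.ι y)) ∧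
      ∀ σ : ℂ →+* ℂ, (∀ z, z ^ Nat.card N = 1 → σ z = z) → ∀ g, σ (ψ g) = ψ g)
    ⟨0, isCharacter_zero, fun _ => rfl, fun σ _ _ => map_zero σ⟩ (fun χ hχ => ?_) ?_ hχ
  · obtain ⟨θ, hθ, i⟩ := exists_irr_constituent_comp E.ι hχ
    have := Fintype.ofFinite (E.inertia θ)
    have m := E.ι_mem_inertia (irr_isClassFunction hθ)
    let F := E.restrict _ m
    have c' : F.index.Coprime (Nat.card N) := c.coprime_dvd_left (by
      rw [E.index_restrict]; exact relIndex_dvd_index_of_normal _ _)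
    obtain ⟨η, k, f, -⟩ := F.exists_canon c' hθ (E.invariant_restrict_inertia m)
    have j : classInner (fun y => η (F.ι y)) θ = 1 := by rw [funext f, inner_irr_self hθ]
    have a := E.corr_irr F _ (subtype_injective _) (fun _ => rfl) hθ (by simp) k.irr
      (j.trans_ne one_ne_zero)
    have b := (E.corr_inner F _ (subtype_injective _) (fun _ => rfl) hθ (by simp) k.irr
      (j.trans_ne one_ne_zero)).trans j
    obtain ⟨e, he⟩ := inner_char_eq_nat (char_comp (irr_isCharacter hχ) E.ι) (irr_isCharacter hθ)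
    refine ⟨_, char_natCast_smul (irr_isCharacter a) e, fun y => ?_, fun σ h g => ?_⟩
    · have := congrFun (E.clifford a hθ (b.trans_ne one_ne_zero)) y
      rw [b, one_smul] at this
      rw [Pi.smul_apply, this, congrFun (E.clifford hχ hθ i) y, he, Pi.smul_apply]
    · rw [Pi.smul_apply, smul_eq_mul, map_mul, map_natCast, ind_subtype, map_indFun σ (k.map_eq c' σ
        fun y => ?_)]
      rw [f, char_map_eq_pow (irr_isCharacter hθ) σ (m := 1) (by simpa using h) pow_card_eq_one',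
        pow_one]
  · rintro φ χ - - ⟨a, b, c, d⟩ ⟨e, f, g, h⟩
    exact ⟨a + e, char_add b f, fun y => by simp [c, g], fun σ s x => by simp [d σ s, h σ s]⟩

theorem exists_index_dvd {N Q : Type*} [Group N] [Finite N] [Group Q] [Finite Q] (E : NormalEmb N G)
    (hp : p.Prime) (c : E.index.Coprime (Nat.card N)) (k : ¬ p ∣ Nat.card N)
    (hχ : IsCharacter G χ) (e : χ 1 = n) (f : ∀ y, χ (E.ι y) = n → y = 1) (a : IsPGroup p Q)
    (j : Q →* G) : ∃ K : Subgroup Q, (∀ x ∈ K, ∀ y, y = E.c (j x) y) ∧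
      K.index ∣ p ^ (n / (p - 1)) * (n / (p - 1)).factorial := by
  obtain ⟨ψ, c, v, r⟩ := exists_rat_ext E c hχ
  have c' := char_comp c j
  have e' : ψ 1 = n := by simpa [e] using v 1
  refine ⟨_, fun x hx y => ?_, schur_dvd hp a c' (by simpa using e') fun m h x => ?_⟩
  · have h1 : j x ∈ charKer ψ :=
      (mem_charKer_iff c).2 (((mem_charKer_iff c').1 hx).trans (congrArg ψ (map_one _)))
    have h2 := (mem_charKer_iff c).1 (mul_mem ((charKer_normal (char_isClassFunction c)).conj_mem _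
      h1 (E.ι y)) (inv_mem h1))
    rw [show E.ι y * j x * (E.ι y)⁻¹ * (j x)⁻¹ = E.ι (y * (E.c (j x) y)⁻¹) by
      rw [map_mul, map_inv, E.ι_c]; group, v, e'] at h2
    exact mul_inv_eq_one.1 (f _ h2)
  · obtain ⟨i, hi⟩ := a x
    obtain ⟨σ, s, t⟩ := exists_aut_fix hp Nat.card_pos.ne' k h i
    rw [← char_map_eq_pow c' (σ : ℂ →+* ℂ) t hi]
    exact r σ s _

theorem relIndex_cent_dvd (hp : p.Prime) (hχ : IsCharacter G χ) (f : ∀ g, χ g = χ 1 → g = 1)
    (e : χ 1 = n) {L Q : Subgroup G} (k : PiGrp {p}ᶜ L) (a : PiGrp {p} Q) (b : Q ≤ 𝐍 L) :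
    (𝐂 L).relIndex Q ∣ p ^ (n / (p - 1)) * (n / (p - 1)).factorial := by
  obtain ⟨K, h, d⟩ := exists_index_dvd (NormalEmb.ofLe (le_sup_left : L ≤ L ⊔ Q) fun t ht y =>
    conj_mem_of_norm (sup_le (le_norm_self L) b ht)) hp (by
      rw [NormalEmb.index_ofLe, relIndex_sup_norm' (.inl b)]
      exact (a.relIndex L).coprime k) (k.not_dvd' hp rfl) (char_restrict hχ _) e
    (fun y h => Subtype.ext (f _ (h.trans e.symm))) a.isPGroup (inclusion le_sup_right)
  refine (index_dvd_of_le fun x hx => mem_subgroupOf.2 (mem_cent.2 fun y hy => ?_)).trans d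
  have : y = x * y * (x : G)⁻¹ := congrArg Subtype.val (h x hx ⟨y, hy⟩)
  exact (mul_inv_eq_iff_eq_mul.1 this.symm).symm

theorem exists_pair [Fact p.Prime] (s : IsPSolvable p G) : ∃ L Q : Subgroup G, PiGrp {p}ᶜ L ∧
    PiGrp {p} Q ∧ Q ≤ 𝐍 L ∧ p ^ (pCore p G).index.factorization p ∣ (𝐂 L).relIndex Q := by
  have hp : p.Prime := Fact.out
  let f := QuotientGroup.mk' (pCore p G)
  have sj : Function.Surjective f := QuotientGroup.mk'_surjective _
  have k : PiGrp {p}ᶜ (pPrimeCore p (G ⧸ pCore p G)) :=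
    pPrimeCore_eq (G := G ⧸ pCore p G) hp ▸ O_pi _ _
  have m : PiGrp {p} (pCore p G) := pCore_eq (G := G) hp ▸ O_pi _ _
  have l : pCore p G ≤ (pPrimeCore p _).comap f := (QuotientGroup.ker_mk' _).ge.trans (ker_le_comap _ _)
  obtain ⟨L, a, b⟩ := Hall.exists_compl (π := {p}) ⟨l, m, by
    have := relIndex_ker ((pPrimeCore p _).comap f) f
    rw [QuotientGroup.ker_mk', map_comap_eq_self_of_surjective sj] at this
    exact this ▸ k⟩ le_normalizer_of_normal
  obtain ⟨Q, hQ⟩ := exists_syl p (𝐍 L)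
  have e : L.map f = pPrimeCore p _ := by
    have := b.map f
    rw [map_comap_eq_self_of_surjective sj] at this
    exact this.eq_of_pi k
  have t : (𝐍 L).map f = ⊤ := eq_top_iff.2 fun g _ => by
    obtain ⟨g, rfl⟩ := sj g
    obtain ⟨u, hu, w⟩ := exists_cj_le_of_le_sup (A := L) (B := cj g L) (K := pCore p G)
      le_normalizer_of_normal (a.sup ▸ cj_le_of_norm (le_normalizer_of_normal (mem_top g)) b.le)
      ((b.pi.cj g).coprime' m) (.inr m.sol)
    exact ⟨u * g, mem_norm_of_cj_le (cj_cj u g L ▸ w), by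
      rw [map_mul, show f u = 1 from (QuotientGroup.eq_one_iff u).2 hu, one_mul]⟩
  refine ⟨L, Q, b.pi, hQ.pi, hQ.le, ((t ▸ hQ.map f).dvd_card (by
    rw [card_top]; exact Nat.ordProj_dvd _ p) (piNat_pow_self hp _)).trans ?_⟩
  rw [← relIndex_ker]
  refine index_dvd_of_le fun x hx => ((hQ.pi.elt x.2).map f).eq_one (k.elt
    (CF.Solv.centralizer_pPrimeCore_le_of_isPSolvable (CF.Solv.isPSolvable_quotient s _)
      CF.Solv.pCore_quotient_pCore ?_))
  exact e ▸ map_cent (zpowers_le.2 hx) f ⟨_, mem_zpowers _, rfl⟩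

end CF.Fgs2.Isa
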