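import Cfsg.Agent.Fgs2.Isa10

/-!
The order of a `p`-group with a faithful irreducible character of given degree and field of values.
-/

set_option autoImplicit false

namespace CF.Fgs2.Isa

open Cfsg Subgroup CF.BG CF.Clifford CF.Char MulAction

universe u

variable {G : Type u} [Group G] [Finite G] {χ : G → ℂ} {d n p r : ℕ}

/-- The number of Galois conjugates. -/
noncomputable abbrev gal {X : Type*} (χ : X → ℂ) : ℕ := (stabilizer (RingAut ℂ) χ).index

theorem orbit_finite (hχ : IsIrrCharacter G χ) : (orbit (RingAut ℂ) χ).Finite :=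
  (Set.toFinite (Set.range (Subtype.val : IrrCharacter G → G → ℂ))).subset <| by
    rintro _ ⟨σ, rfl⟩
    exact ⟨⟨_, irr_map hχ (σ : ℂ →+* ℂ)⟩, rfl⟩

theorem gal_ne_zero (hχ : IsIrrCharacter G χ) : gal χ ≠ 0 := by
  rw [gal, index_stabilizer]
  exact ((Set.ncard_pos (orbit_finite hχ)).2 ⟨χ, mem_orbit_self χ⟩).ne'

theorem gal_le_finrank {X : Type*} (χ : X → ℂ)
    (h : Module.finrank ℚ (IntermediateField.adjoin ℚ (Set.range χ)) ≠ 0) :
    gal χ ≤ Module.finrank ℚ (IntermediateField.adjoin ℚ (Set.range χ)) := by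
  have := Module.finite_of_finrank_pos (Nat.pos_of_ne_zero h)
  refine le_trans ?_ (card_algHom_le_finrank ℚ _ ℂ)
  rw [gal, index_stabilizer, ← Set.ncard_univ]
  refine (Set.ncard_le_ncard (t := (fun φ : IntermediateField.adjoin ℚ (Set.range χ) →ₐ[ℚ] ℂ =>
    fun g => φ ⟨χ g, IntermediateField.subset_adjoin _ _ ⟨g, rfl⟩⟩) '' Set.univ) ?_).trans
      (Set.ncard_image_le)
  rintro _ ⟨σ, rfl⟩
  exact ⟨(σ : ℂ →+* ℂ).toRatAlgHom.comp (IntermediateField.val _), trivial, rfl⟩

theorem totient_le_gal (l : G →* ℂˣ) : l.ker.index.totient ≤ gal fun g => (l g : ℂ) := by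
  have : Finite l.range := Finite.of_surjective _ l.rangeRestrict_surjective
  obtain ⟨⟨_, g, rfl⟩, h⟩ := IsCyclic.exists_ofOrder_eq_natCard (α := l.range)
  rw [← orderOf_coe, ← index_ker, ← orderOf_units] at h
  have n0 : l.ker.index ≠ 0 := index_ne_zero_of_finite
  have := NeZero.mk n0
  have z : IsPrimitiveRoot (l g : ℂ) l.ker.index := IsPrimitiveRoot.iff_orderOf.2 h
  rw [gal, index_stabilizer, ← z.card_primitiveRoots, ← Set.ncard_coe_finset]
  have f := orbit_finite (irr_linear l)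
  refine (Set.ncard_le_ncard (fun w hw => ?_) (f.image (· g))).trans (Set.ncard_image_le f)
  have hw := (mem_primitiveRoots (Nat.pos_of_ne_zero n0)).1 hw
  obtain ⟨m, -, c, rfl⟩ := (z.isPrimitiveRoot_iff).1 hw
  obtain ⟨σ, hσ⟩ := exists_aut_pow n0 c
  exact ⟨_, ⟨σ, rfl⟩, hσ _ z.pow_eq_one⟩

theorem gal_le_mul {X : Type*} {ψ : X → ℂ} (hχ : IsIrrCharacter G χ) {S : Set (X → ℂ)}
    (f : S.Finite) (h : ∀ σ : RingAut ℂ, σ • χ = χ → σ • ψ ∈ S) : gal ψ ≤ S.ncard * gal χ := by
  have s : orbit (stabilizer (RingAut ℂ) χ) ψ ⊆ S := by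
    rintro _ ⟨σ, rfl⟩
    exact h σ σ.2
  have e : (stabilizer (RingAut ℂ) ψ ⊓ stabilizer (RingAut ℂ) χ).index =
      (orbit (stabilizer (RingAut ℂ) χ) ψ).ncard * gal χ := by
    rw [← relIndex_mul_index inf_le_right, inf_relIndex_right, ← index_stabilizer]; rfl
  refine (Nat.le_of_dvd (Nat.pos_of_ne_zero ?_) (index_dvd_of_le inf_le_left)).trans
    (e ▸ Nat.mul_le_mul_right _ (Set.ncard_le_ncard s f))
  exact e ▸ mul_ne_zero ((Set.ncard_pos (f.subset s)).2 ⟨ψ, mem_orbit_self ψ⟩).ne' (gal_ne_zero hχ)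

theorem exists_ind_coatom [Fintype G] [Group.IsNilpotent G] (hχ : IsIrrCharacter G χ)
    (h : χ 1 ≠ 1) : ∃ (H : Subgroup G) (ψ : H → ℂ), IsCoatom H ∧ IsIrrCharacter H ψ ∧
      indFun H ψ = χ := by
  obtain ⟨U, l, e⟩ := isMonomial_of_isNilpotent hχ
  obtain ⟨H, c, k⟩ := (eq_top_or_exists_le_coatom U).resolve_left fun w => h (by
    rw [e, indFun_one, index_eq_one.2 w]; simp)
  have := Fintype.ofFinite H
  have i := (indFun_indFun U H k _).trans e.symm
  exact ⟨H, _, c, irr_of_irr_indFun H (char_indFun _ (char_comp (char_linear l)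
    (subgroupOfEquivOfLe k).toMonoidHom)) (i ▸ hχ), i⟩

theorem log_le_of_gal (hp : p.Prime) (k : ℕ) : ∀ (G : Type u) [Group G] [Finite G], Nat.card G = k →
    IsPGroup p G → ∀ (χ : G → ℂ) (a f t : ℕ), IsIrrCharacter G χ → χ 1 = f →
      gal χ ≤ (p - 1) * p ^ t → (charKer χ).index = p ^ a →
        (p - 1) * a + 1 ≤ f + (p - 1) * (t + 1) * f := by
  classical
  induction k using Nat.strong_induction_on with | _ k ih =>
  rintro G _ _ rfl k χ a f t hχ e g i
  have := Fintype.ofFinite G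
  have := Fact.mk hp
  have := k.isNilpotent
  have p1 := hp.one_lt
  by_cases h : χ 1 = 1
  · obtain rfl : f = 1 := by exact_mod_cast e.symm.trans h
    obtain ⟨l, rfl⟩ := exists_linear_of_one (irr_isCharacter hχ) h
    have := (totient_le_gal l).trans g
    rw [← charKer_linear, i] at this
    rcases a with _ | a
    · simp
    · rw [Nat.totient_prime_pow_succ hp, mul_comm] at this
      have := (Nat.pow_le_pow_iff_right p1).1 (Nat.le_of_mul_le_mul_left this (by omega))
      simpa [add_comm] using Nat.mul_le_mul_left (p - 1) (Nat.succ_le_succ this)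
  obtain ⟨H, ψ, c, hψ, rfl⟩ := exists_ind_coatom hχ h
  have := Fintype.ofFinite H
  have n := (Group.normalizerCondition_of_isNilpotent (G := G)).normal_of_coatom H c
  have ip := CF.Solv.index_eq_of_isCoatom_of_isPGroup k c
  have cψ := irr_isCharacter hψ
  have cχ := irr_isCharacter hχ
  let E := NormalEmb.sub H
  obtain ⟨d, hd, e'⟩ := exists_cd hψ
  obtain rfl : f = p * d := by
    rw [indFun_one, ip, e'] at e; exact_mod_cast e.symm
  obtain ⟨b, hb⟩ := (k.to_subgroup H).index (charKer ψ)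
  have ih := fun s w => ih _ (CF.Solv.card_lt_of_ne_top c.1) H rfl (k.to_subgroup H) ψ b d s hψ e' w hb
  have j : classInner (fun y => indFun H ψ (E.ι y)) ψ ≠ 0 := by
    rw [show (fun y => indFun H ψ (E.ι y)) = fun y : H => indFun H ψ y from rfl,
      ← inner_indFun_right H ψ (irr_isClassFunction hχ), inner_irr_self hχ]
    exact one_ne_zero
  have s : ∀ σ : RingAut ℂ, σ • indFun H ψ = indFun H ψ → ∃ x, E.cj ψ x = σ • ψ := fun σ w =>
    E.exists_cj_eq hχ hψ (irr_map hψ (σ : ℂ →+* ℂ)) j (by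
      rw [← inner_map_gen (gen_of_char (char_comp cχ E.ι)) (gen_of_char cψ) (σ : ℂ →+* ℂ)] at j
      rwa [← w])
  have l : (Finset.univ.image (E.cj ψ)).card ≤ p := by
    rw [E.card_image_cj, ← ip]
    exact Nat.le_of_dvd (ip ▸ hp.pos) (by
      simpa [E] using index_dvd_of_le (E.range_le_inertia (irr_isClassFunction hψ)))
  rw [← relIndex_mul_index (charKer_indFun_le H cψ (irr_one_ne_zero hψ)), ip] at i
  have d0 := cd_pos hd
  obtain ⟨q, rfl⟩ : ∃ q, p = q + 2 := ⟨p - 2, by omega⟩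
  rw [show q + 2 - 1 = q + 1 from rfl] at *
  by_cases w : ∃ (σ : RingAut ℂ) (x : G), x ∉ H ∧ E.cj ψ x = σ • ψ
  · obtain ⟨σ, x, hx, w⟩ := w
    have ih := ih (t + 1) ((gal_le_mul hχ (Finset.univ.image (E.cj ψ)).finite_toSet fun σ w => by
      simpa using s σ w).trans (by
        rw [Set.ncard_coe_finset, pow_succ, ← mul_assoc, mul_comm _ (q + 2)]
        exact Nat.mul_le_mul l g))
    have m : ((charKer ψ).map H.subtype).Normal := normalizer_eq_top_iff.1 (c.2 _ (lt_of_le_of_ne
      (normal_iff_map_subtype.1 (charKer_normal (irr_isClassFunction hψ))).norm fun v =>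
        hx (v ▸ mem_norm_of_cj_le ?_)))
    · have : (charKer ψ).map H.subtype ≤ charKer (indFun H ψ) := le_charKer_indFun H cψ _
        (map_subtype_le _) fun u ⟨v, hv, w⟩ => (mem_charKer_iff cψ).1 ((Subtype.ext w : v = u) ▸ hv)
      have : (q + 2) ^ a ≤ (q + 2) ^ (b + 1) := by
        rw [← i, pow_succ, ← hb]
        exact Nat.mul_le_mul_right _ (Nat.le_of_dvd (Nat.pos_of_ne_zero index_ne_zero_of_finite)
          (index_dvd_of_le fun y hy => this ⟨y, hy, rfl⟩))
      have := Nat.mul_le_mul_left (q + 1) ((Nat.pow_le_pow_iff_right p1).1 this)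
      obtain ⟨d, rfl⟩ : ∃ e, d = e + 1 := ⟨d - 1, by omega⟩
      nlinarith [Nat.zero_le (q * q * t * d), Nat.zero_le (q * t * d), Nat.zero_le (q * q * t),
        Nat.zero_le (q * q * d), Nat.zero_le (q * d), Nat.zero_le (q * t), Nat.zero_le (t * d)]
    · rintro _ ⟨_, ⟨y, hy, rfl⟩, rfl⟩
      refine ⟨E.c x y, (mem_charKer_iff cψ).2 ?_, rfl⟩
      have := congrFun w y
      rw [E.cj_apply] at this
      rw [this, Pi.smul_apply, (mem_charKer_iff cψ).1 hy, e']
      exact map_natCast σ d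
  · have ih := ih t ((gal_le_mul hχ (Set.finite_singleton ψ) fun σ v => by
      obtain ⟨x, hx⟩ := s σ v
      by_contra u
      exact w ⟨σ, x, fun m => u (hx ▸ E.cj_ι (irr_isClassFunction hψ) ⟨x, m⟩), hx⟩).trans
        (by simpa using g))
    have : (q + 2) ^ a ≤ (q + 2) ^ (b * (q + 2) + 1) := by
      rw [← i, pow_succ, pow_mul, ← hb]
      refine Nat.mul_le_mul_right _ ((Nat.le_of_dvd (Nat.pos_of_ne_zero index_ne_zero_of_finite)
        (index_dvd_of_le (H := ⨅ φ : Finset.univ.image (E.cj ψ), charKer φ.1) ?_)).trans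
          ((index_iInf_le _).trans ((Finset.prod_le_pow_card _ _ _ fun φ _ => ?_).trans
            (Nat.pow_le_pow_right (Nat.pos_of_ne_zero index_ne_zero_of_finite) (by simpa using l)))))
      · rw [← charKer_restrict cχ]
        refine fun y hy => mem_charKer_of_constituents (char_isClassFunction (char_restrict cχ H))
          fun φ u v => ?_
        obtain ⟨x, rfl⟩ := E.exists_cj_eq hχ hψ u j v
        exact mem_iInf.1 hy ⟨_, Finset.mem_image_of_mem _ (Finset.mem_univ x)⟩
      · obtain ⟨_, u⟩ := φ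
        obtain ⟨x, -, rfl⟩ := Finset.mem_image.1 u
        exact ((congrArg index (charKer_comp ψ (E.c x).toMonoidHom (E.c x).surjective)).trans
          (index_comap_of_surjective _ (E.c x).surjective)).le
    have := Nat.mul_le_mul_left (q + 1) ((Nat.pow_le_pow_iff_right p1).1 this)
    nlinarith [Nat.mul_le_mul_left (q + 2) ih]

end CF.Fgs2.Isa
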