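import Cfsg.Agent.Fgs2.Isa1

/-!
Abelian subgroups of index bounded in terms of the largest character degree.
-/

set_option autoImplicit false

namespace CF.Fgs2.Isa

open Cfsg Subgroup CF.BG CF.Clifford CF.Char
open scoped commutatorElement ComplexConjugate

universe u

variable {G : Type u} [Group G] [Finite G] {χ : G → ℂ} {b d m n p : ℕ}

/-- All degrees are at most `b`. -/
def Bd (G : Type*) [Group G] (b : ℕ) : Prop := ∀ d ∈ 𝐜𝐝 G, d ≤ b

theorem Bd.sub (h : Bd G b) (H : Subgroup G) : Bd H b := fun _ hd =>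
  let ⟨e, x, y⟩ := exists_cd_le hd
  y.trans (h e x)

omit [Finite G] in
theorem Bd.quot (h : Bd G b) (N : Subgroup G) [N.Normal] : Bd (G ⧸ N) b := fun d hd =>
  h d (cd_quot N hd)

theorem Bd.res_eq (h : Bd G b) {H : Subgroup G} [Fintype H] {θ : H → ℂ} (hθ : IsIrrCharacter H θ)
    (e : θ 1 = b) (hχ : IsIrrCharacter G χ) (i : classInner (fun x : H => χ x) θ ≠ 0) :
    (fun x : H => χ x) = θ := by
  obtain ⟨d, x, y⟩ := exists_cd hχ
  have := one_le_of_inner_ne_zero (char_restrict (irr_isCharacter hχ) H) hθ i y e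
  obtain rfl := le_antisymm this (h d x)
  exact CF.Char.eq_of_inner_ne_zero_of_one_eq (char_restrict (irr_isCharacter hχ) H) hθ i
    (y.trans e.symm)

theorem Bd.exists_ext (h : Bd G b) {H : Subgroup G} {θ : H → ℂ} (hθ : IsIrrCharacter H θ)
    (e : θ 1 = b) : ∃ χ, IsIrrCharacter G χ ∧ (fun x : H => χ x) = θ := by
  have := Fintype.ofFinite G
  have := Fintype.ofFinite H
  obtain ⟨χ, a, i⟩ := CF.Char.exists_irr_over H hθ
  exact ⟨χ, a, h.res_eq hθ e a i⟩

theorem Bd.mem_core (h : Bd G b) {H : Subgroup G} {θ : H → ℂ} (hθ : IsIrrCharacter H θ)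
    (e : θ 1 = b) {x : H} (hx : θ x ≠ 0) : (x : G) ∈ H.normalCore := by
  have := Fintype.ofFinite G
  have := Fintype.ofFinite H
  obtain ⟨χ, a, i⟩ := h.exists_ext hθ e
  have k : ∀ y : H, indFun H θ y =
      (∑ ψ : IrrCharacter G, classInner (indFun H θ) ψ) * θ y := fun y => by
    rw [classFun_apply_eq_sum (indFun_isClassFunction H θ), Finset.sum_mul]
    refine Finset.sum_congr rfl fun ψ _ => ?_
    by_cases w : classInner (indFun H θ) ψ = 0
    · simp [w]
    · rw [inner_indFun_left H θ (irr_isClassFunction ψ.2)] at w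
      rw [← h.res_eq hθ e ψ.2 (inner_irr_ne_zero_comm.1 w)]
  have k1 := k 1
  rw [OneMemClass.coe_one, indFun_one] at k1
  have k2 := k x
  rw [← mul_right_cancel₀ (irr_one_ne_zero hθ) k1] at k2
  conv_lhs at k2 => rw [← i, indFun_restrict H (irr_isClassFunction a)]
  have k3 : χ x = θ x := congrFun i x
  simp only [k3] at k2
  have := (mem_charKer_indFun_iff H char_const_one one_ne_zero).1
    ((mem_charKer_iff (char_indFun_one H)).2 ((mul_right_cancel₀ hx k2).trans
      (by rw [indFun_one, mul_one])))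
  exact fun g => (this g).1

theorem Bd.half (h : Bd G b) {K : Subgroup G} [K.Normal] (hm : m ∈ 𝐜𝐝 (G ⧸ K)) (m1 : m ≠ 1) :
    Bd K (b / 2) := fun d hd => by
  have := Fintype.ofFinite G
  have := Fintype.ofFinite K
  obtain ⟨θ, x, y⟩ := mem_cd.1 hd
  obtain ⟨χ, a, i⟩ := CF.Char.exists_irr_over K x
  obtain ⟨k, u, v⟩ := (NormalEmb.sub K).exists_deg_eq_mul x a i
  have k0 : k ≠ 0 := fun w => irr_one_ne_zero a (by rw [v, w]; simp)
  have m0 := cd_pos hm
  rw [Nat.le_div_iff_mul_le two_pos]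
  by_cases k1 : k = 1
  · subst k1
    rw [Nat.cast_one, one_mul] at v
    have e := CF.Char.eq_of_inner_ne_zero_of_one_eq (char_restrict (irr_isCharacter a) K) x i v
    have := h _ (mul_mem_cd (irr_isCharacter a) (e ▸ x) (v.trans y) hm)
    nlinarith [show 2 ≤ m by omega]
  · have := h _ (cd_of_irr (d := k * d) a (by rw [v, y, Nat.cast_mul]))
    nlinarith [show 2 ≤ k by omega]

theorem irr_mul_of_center {Z : Subgroup G} [Z.Normal] {β : G → ℂ} (hβ : IsIrrCharacter G β)
    (c : Z ≤ charCenter β) (hχ : IsCharacter G χ) (i : IsIrrCharacter Z fun x => χ x) :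
    IsIrrCharacter G (β * χ) := by
  have := Fintype.ofFinite G
  have := Fintype.ofFinite Z
  obtain ⟨l, hl⟩ := exists_linear_of_le_charCenter (irr_one_ne_zero hβ) Z c
  have e : (fun n => β ((NormalEmb.sub Z).ι n)) = β 1 • fun z => (l z : ℂ) := funext fun z => by
    simpa [mul_comm] using hl z 1
  refine (NormalEmb.sub Z).gallagher_irr (irr_linear l) ((NormalEmb.sub Z).invariant_of_res_eq_smul
    (irr_isClassFunction hβ) (irr_one_ne_zero hβ) e) (irr_linear_mul l i) hχ (fun _ => rfl) hβ ?_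
  rw [e, CF.Char.inner_smul_left, inner_irr_self (irr_linear l), mul_one]
  exact irr_one_ne_zero hβ

theorem mul_mem_of_center {K : Subgroup G} [K.Normal] (hm : m ∈ 𝐜𝐝 (G ⧸ K))
    (hχ : IsCharacter G χ) (e : χ 1 = d)
    (i : IsIrrCharacter ((center (G ⧸ K)).comap (QuotientGroup.mk' K)) fun x => χ x) :
    m * d ∈ 𝐜𝐝 G := by
  obtain ⟨β, a, b⟩ := mem_cd.1 hm
  refine cd_of_irr (irr_mul_of_center (irr_inflate K a) (fun z hz => ?_) hχ i) (by simp [b, e])
  obtain ⟨c, hc⟩ := mem_charCenter.1 (center_le_charCenter a hz)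
  exact mem_charCenter.2 ⟨c, fun x => hc x⟩

theorem sum_deg_sq : ∑ χ : IrrCharacter G, charDegree (χ : G → ℂ) ^ 2 = Nat.card G := by
  have := sum_irr_one_sq (G := G)
  simp only [← CF.BlockB.irr_charDegree_eq] at this
  exact_mod_cast this

theorem Bd.small_class (h : Bd G b) [Nontrivial G] : ∃ x : G, x ≠ 1 ∧ (𝐂₁ x).index ≤ b ^ 2 := by
  classical
  have := Fintype.ofFinite G
  by_contra! w
  have s := sum_card_centralizer (G := G)
  rw [← card_irr, ← Finset.add_sum_erase _ _ (Finset.mem_univ 1)] at s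
  have l : ∑ g ∈ Finset.univ.erase (1 : G), ♯(𝐂₁ g) * b ^ 2 <
      ∑ g ∈ Finset.univ.erase (1 : G), Nat.card G :=
    Finset.sum_lt_sum_of_nonempty ((exists_ne (1 : G)).imp fun g a => by simp [a]) fun g a => by
      rw [← (𝐂₁ g).card_mul_index]
      exact Nat.mul_lt_mul_of_pos_left (w g (Finset.ne_of_mem_erase a)) (card_pos' _)
  rw [← Finset.sum_mul, Finset.sum_const, Finset.card_erase_of_mem (Finset.mem_univ _),
    Finset.card_univ, ← Nat.card_eq_fintype_card, smul_eq_mul] at l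
  have t := sum_deg_sq (G := G)
  rw [← Finset.add_sum_erase _ _ (Finset.mem_univ (oneIrr G))] at t
  have u := Finset.sum_le_card_nsmul (Finset.univ.erase (oneIrr G))
    (fun χ => charDegree (χ : G → ℂ) ^ 2) (b ^ 2) fun χ _ => Nat.pow_le_pow_left (h _ ⟨χ, rfl⟩) 2
  rw [Finset.card_erase_of_mem (Finset.mem_univ _), Finset.card_univ, ← Nat.card_eq_fintype_card,
    smul_eq_mul] at u
  rw [CF.BlockB.charDegree_of_eq (n := 1) (by simp)] at t
  have c : Nat.card (centralizer ({1} : Set G)) = Nat.card G := by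
    rw [show centralizer ({1} : Set G) = ⊤ from cent1_one, card_top]
  rw [c] at s
  obtain ⟨k, hk⟩ : ∃ k, Nat.card (IrrCharacter G) = k + 1 :=
    Nat.exists_eq_succ_of_ne_zero Nat.card_pos.ne'
  obtain ⟨n, hn⟩ : ∃ k, Nat.card G = k + 1 := Nat.exists_eq_succ_of_ne_zero Nat.card_pos.ne'
  rw [hk, hn] at s
  rw [hk, Nat.add_sub_cancel] at u
  rw [hn] at t
  rw [hn, Nat.add_sub_cancel] at l
  have s' : ∑ g ∈ Finset.univ.erase (1 : G), ♯(𝐂₁ g) = (n + 1) * k := by linarith
  rw [s'] at l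
  have : n ≤ k * b ^ 2 := by omega
  nlinarith

theorem Bd.abel_of_le (h : Bd G 4) (k : MinNA G) : Abel (commutator G) := by
  by_cases s : ∀ p : ℕ, p.Prime → p ∣ Nat.card G → p = 2 ∨ p = 3
  · refine k.abel (isSolvable_of_card_primeFactors_le_two ((Finset.card_le_card (t := {2, 3})
      fun p hp => ?_).trans (by simp)))
    simpa using s p (Nat.prime_of_mem_primeFactors hp) (Nat.dvd_of_mem_primeFactors hp)
  push Not at s
  obtain ⟨p, hp, a, b, c⟩ := s
  have : 4 < p := by
    have := hp.two_le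
    by_contra w
    obtain rfl : p = 4 := by omega
    exact absurd hp (by norm_num)
  obtain ⟨P, x, y, -, z⟩ := Cfsg.Agent.S4464.result (G := G) p hp fun χ =>
    (h _ ⟨χ, rfl⟩).trans_lt this
  exact (abel_of_forall y).mono (k.le P x fun w => z (by rwa [w, index_bot]))

theorem Bd.step (h : Bd G b) (c : ¬ commutator G ≤ ⊥) :
    (∃ H : Subgroup G, H.index ≤ b ^ 2 ∧ Bd H (b - 1)) ∨
      ∃ K : Subgroup G, Bd K (b / 2) ∧ (K.index ≤ (b - 1) * b ^ 2 ∨ 5 ≤ b ∧ K.index ≤ b ^ 4) := by
  obtain ⟨K, _, -, k⟩ := exists_minNA c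
  obtain ⟨f, x, y⟩ := k.exists_cd
  have sj := QuotientGroup.mk'_surjective K
  have fb := h f (cd_quot K x)
  have f0 := cd_pos x
  refine or_iff_not_imp_left.2 fun w => ⟨K, h.half x y, ?_⟩
  have top : ∀ H : Subgroup G, H.index ≤ b ^ 2 → b ∈ 𝐜𝐝 H := fun H l => by
    by_contra v
    exact w ⟨H, l, fun d hd => Nat.le_sub_one_of_lt ((h.sub H d hd).lt_of_ne fun e => v (e ▸ hd))⟩
  by_cases a : Abel (commutator (G ⧸ K))
  · obtain ⟨p, hp, -, -, e⟩ | ⟨r, ⟨q, hq, s, t⟩, e⟩ := k.cases a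
    · obtain ⟨θ, u, v⟩ := mem_cd.1 (top ((center _).comap (QuotientGroup.mk' K)) (by
        rw [index_comap_of_surjective _ sj, ← e f x y]; exact Nat.pow_le_pow_left fb 2))
      obtain ⟨χ, i, j⟩ := h.exists_ext u v
      have := h _ (mul_mem_of_center x (irr_isCharacter i) ((congrFun j 1).trans v) (j ▸ u))
      nlinarith [show 2 ≤ f by omega]
    · obtain rfl := e f x y
      have i := index_comap_of_surjective (commutator _) sj
      obtain z | z := mul_mem_cd_or_dvd sj a r (top _ (by rw [i]; nlinarith))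
      · have := h _ z
        nlinarith [show 2 ≤ (commutator (G ⧸ K)).index by omega]
      · left
        rw [index_eq_card, ← (commutator (G ⧸ K)).index_mul_card]
        refine Nat.mul_le_mul (Nat.le_sub_one_of_lt (fb.lt_of_ne fun v => t ?_))
          (Nat.le_of_dvd (by nlinarith) z)
        rw [v]
        exact hq.dvd_of_dvd_pow ((s.pi.dvd_card k.ne).trans z)
  · right
    refine ⟨by by_contra! v; exact a (Bd.abel_of_le (fun d hd => (h.quot K d hd).trans (by omega)) k), ?_⟩
    have : Nontrivial (G ⧸ K) := by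
      by_contra v
      have := not_nontrivial_iff_subsingleton.1 v
      exact k.ne (Subsingleton.elim _ _)
    obtain ⟨z, z1, l⟩ := (h.quot K).small_class
    have i := index_comap_of_surjective (𝐂₁ z) sj
    have le : K ≤ (𝐂₁ z).comap (QuotientGroup.mk' K) := fun g hg => by
      rw [mem_comap, QuotientGroup.mk'_apply, (QuotientGroup.eq_one_iff g).2 hg]; exact one_mem _
    have co : ((𝐂₁ z).comap (QuotientGroup.mk' K)).normalCore ≤ K := by
      by_contra v
      have := (k.le (((𝐂₁ z).comap (QuotientGroup.mk' K)).normalCore.map (QuotientGroup.mk' K))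
        (Normal.map inferInstance _ sj) fun e => v (by
          rwa [Subgroup.map_eq_bot_iff, QuotientGroup.ker_mk'] at e)).trans
        (map_le_iff_le_comap.2 (normalCore_le _))
      exact z1 (mem_bot.1 (k.cent a ▸ le_cent1_iff.1 this))
    generalize (𝐂₁ z).comap (QuotientGroup.mk' K) = H at i le co
    obtain ⟨θ, u, v⟩ := mem_cd.1 (top H (i ▸ l))
    have := index_dvd_sq_of_vanish (K := K.subgroupOf H) u v fun g hg => by
      by_contra e
      exact hg (co (h.mem_core u v e))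
    rw [← relIndex_mul_index le, show b ^ 4 = b ^ 2 * b ^ 2 by ring]
    exact Nat.mul_le_mul (Nat.le_of_dvd (by nlinarith) this) (i ▸ l)

theorem Bd.exists_abel (b : ℕ) : ∀ (G : Type u) [Group G] [Finite G], Bd G b →
    ∃ A : Subgroup G, Abel A ∧ A.index ≤ b.factorial ^ 2 := by
  induction b using Nat.strong_induction_on with
  | _ b ih =>
  intro G _ _ h
  by_cases c : commutator G ≤ ⊥
  · exact ⟨⊤, abel_of_forall fun x _ y _ => comm_of_commutator_eq_bot (le_bot_iff.1 c) x y, by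
      rw [index_top]; exact Nat.one_le_pow _ _ b.factorial_pos⟩
  have b2 : 2 ≤ b := by
    by_contra w
    exact c (der_eq_bot_iff_cd.2 fun d hd => by
      have := h d hd; have := cd_pos hd; show d = 1; omega).le
  have key : ∀ (H : Subgroup G) (c : ℕ), c < b → Bd H c →
      c.factorial ^ 2 * H.index ≤ b.factorial ^ 2 →
      ∃ A : Subgroup G, Abel A ∧ A.index ≤ b.factorial ^ 2 := fun H c l k e => by
    obtain ⟨A, x, y⟩ := ih c l H k
    exact ⟨A.map H.subtype, x.map _, by
      rw [index_map_subtype]; exact (Nat.mul_le_mul_right _ y).trans e⟩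
  obtain ⟨H, x, y⟩ | ⟨K, x, y⟩ := h.step c
  · refine key H _ (by omega) y ((Nat.mul_le_mul_left _ x).trans_eq ?_)
    rw [← mul_pow, mul_comm, Nat.mul_factorial_pred (by omega)]
  refine key K _ (by omega) x ?_
  obtain y | ⟨l, y⟩ := y
  · refine (Nat.mul_le_mul_left _ y).trans ?_
    obtain rfl | l := b2.eq_or_lt
    · norm_num
    obtain ⟨c, rfl⟩ : ∃ c, b = c + 2 := ⟨b - 2, by omega⟩
    have := Nat.factorial_le (show (c + 2) / 2 ≤ c by omega)
    rw [Nat.factorial_succ (c + 1), Nat.factorial_succ c, show c + 2 - 1 = c + 1 by omega]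
    calc _ ≤ c.factorial ^ 2 * ((c + 1) ^ 2 * (c + 2) ^ 2) := by gcongr; nlinarith
      _ = _ := by ring
  · refine (Nat.mul_le_mul_left _ y).trans ?_
    obtain ⟨c, rfl⟩ : ∃ c, b = c + 3 := ⟨b - 3, by omega⟩
    have := Nat.factorial_le (show (c + 3) / 2 ≤ c by omega)
    rw [Nat.factorial_succ (c + 2), Nat.factorial_succ (c + 1), Nat.factorial_succ c]
    calc _ = (((c + 3) / 2).factorial * ((c + 3) * (c + 3))) ^ 2 := by ring
      _ ≤ (c.factorial * ((c + 3) * ((c + 2) * (c + 1)))) ^ 2 := by gcongr; nlinarith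
      _ = _ := by ring

end CF.Fgs2.Isa
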