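import Cfsg.Agent.Fgs2.Isa2

/-!
Groups whose character degrees are `1` and a prime.
-/

set_option autoImplicit false

namespace CF.Fgs2.Isa

open Cfsg Subgroup CF.BG CF.Clifford CF.Char
open scoped commutatorElement ComplexConjugate

universe u

variable {G : Type u} [Group G] {A : Subgroup G} [A.Normal] {p k : ℕ}

/-- The commutator map of an element on an abelian normal subgroup. -/
def cm (a : Abel A) (g : G) : A →* A := MonoidHom.mk' (fun x => (NormalEmb.sub A).c g x * x⁻¹)
  fun x y => by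
    have c : ∀ x y : A, x * y = y * x := fun x y => Subtype.ext (a.mul_comm x.2 y.2)
    rw [map_mul, mul_inv_rev, c y⁻¹, mul_assoc, mul_assoc, ← mul_assoc _ x⁻¹, c _ x⁻¹, mul_assoc]

theorem cm_coe (a : Abel A) (g : G) (x : A) : (cm a g x : G) = g * x * g⁻¹ * (x : G)⁻¹ := rfl

theorem mem_ker_cm (a : Abel A) {g : G} {x : A} : x ∈ (cm a g).ker ↔ g * x = x * g := by
  rw [MonoidHom.mem_ker, Subtype.ext_iff, cm_coe, OneMemClass.coe_one, mul_inv_eq_one,
    mul_inv_eq_iff_eq_mul]

/-- The linear characters fixed by an element. -/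
def fx (a : Abel A) (g : G) : Subgroup (A →* ℂˣ) :=
  (MonoidHom.domRestrictHom (cm a g).range ℂˣ).ker

theorem mem_fx (a : Abel A) {g : G} {l : A →* ℂˣ} :
    l ∈ fx a g ↔ g ∈ (NormalEmb.sub A).inertia fun x => (l x : ℂ) := by
  rw [fx, MonoidHom.mem_ker, NormalEmb.mem_inertia', MonoidHom.ext_iff]
  refine ⟨fun h x => ?_, ?_⟩
  · have : l (_ * x⁻¹) = 1 := h ⟨cm a g x, x, rfl⟩
    rw [map_mul, map_inv, mul_inv_eq_one] at this
    rw [this]
  · rintro h ⟨_, x, rfl⟩
    show l (_ * x⁻¹) = 1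
    rw [map_mul, map_inv, mul_inv_eq_one]
    exact Units.ext (h x)

open Classical in
theorem card_diff {X : Type*} [Group X] [Fintype X] (U V : Subgroup X) :
    (Finset.univ.filter fun x => x ∉ V ∧ x ∈ U).card + ♯(U ⊓ V) = ♯U := by
  rw [Nat.card_eq_fintype_card, Nat.card_eq_fintype_card, Fintype.card_subtype,
    Fintype.card_subtype, ← Finset.card_union_of_disjoint (Finset.disjoint_filter.2
      fun x _ u v => u.1 v.2), ← Finset.filter_or]
  congr 2
  ext x
  rw [mem_inf]
  tauto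

variable [Finite G]

theorem index_fx (a : Abel A) (g : G) : (fx a g).index = ♯(cm a g).range := by
  have c : ∀ x y : A, x * y = y * x := fun x y => Subtype.ext (a.mul_comm x.2 y.2)
  have s : (MonoidHom.domRestrictHom (cm a g).range ℂˣ).range = ⊤ :=
    MonoidHom.range_eq_top.2 fun l =>
      (exists_linear_extend_of_comm c _ l).imp fun _ h => MonoidHom.ext h
  rw [fx, index_ker, s, card_top, card_linear,
    (commutator_eq_bot_iff_center_eq_top _).2 ?_, index_bot]
  exact eq_top_iff.2 fun x _ => mem_center_iff.2 fun y => Subtype.ext (c _ _)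

theorem center_index (hp : p.Prime) (a : Abel A) (i : A.index = p ^ 2) (d : commutator G ≤ A)
    (h : Bd G p) (z : (center G).index ∣ p ^ k) (nc : ∀ g, A ⊔ zpowers g ≠ ⊤)
    (na : ∀ g, g ∉ A → ¬ A ≤ 𝐂₁ g) : (center G).index = p ^ 3 := by
  classical
  have := Fintype.ofFinite G
  have := Fintype.ofFinite A
  have := Fintype.ofFinite (A →* ℂˣ)
  have := Fact.mk hp
  let T : (A →* ℂˣ) → Subgroup G := fun l => (NormalEmb.sub A).inertia fun x => (l x : ℂ)
  have TA : ∀ l, A ≤ T l := fun l => A.range_subtype.ge.trans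
    ((NormalEmb.sub A).range_le_inertia (irr_isClassFunction (irr_linear l)))
  have Tn : ∀ l, ¬ T l ≤ A := fun l w => by
    have := h _ (cd_of_irr (d := p ^ 2) (((NormalEmb.sub A).ind_irr_iff (irr_linear l)).2
      (w.trans A.range_subtype.ge)) (by rw [NormalEmb.ind_one]; simp [i]))
    nlinarith [hp.two_le]
  have iM : ∀ g, g ∉ A → (A ⊔ zpowers g).index = p := fun g w => by
    obtain ⟨j, l, e⟩ := (Nat.dvd_prime_pow hp).1 (i ▸ index_dvd_of_le
      (le_sup_left : A ≤ A ⊔ zpowers g))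
    obtain rfl | rfl | rfl : j = 0 ∨ j = 1 ∨ j = 2 := by omega
    · exact absurd (index_eq_one.1 e) (nc g)
    · simpa using e
    · exact absurd ((eq_of_le_of_index_le le_sup_left (i.trans e.symm).le).ge
        (mem_sup_right (mem_zpowers g))) w
  have eM : ∀ g, g ∉ A → ∀ M : Subgroup G, A ≤ M → g ∈ M → M = ⊤ ∨ M = A ⊔ zpowers g :=
    fun g w M x y => by
      have l : A ⊔ zpowers g ≤ M := sup_le x (zpowers_le.2 y)
      obtain e | e := (Nat.dvd_prime hp).1 (iM g w ▸ index_dvd_of_le l)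
      · exact Or.inl (index_eq_one.1 e)
      · exact Or.inr (eq_of_le_of_index_le l ((iM g w).trans e.symm).le).symm
  have iF : ∀ g, g ∉ A → ∃ j, (fx a g).index = p ^ (j + 1) := fun g w => by
    have l : (center G).subgroupOf A ≤ (cm a g).ker := fun x hx =>
      (mem_ker_cm a).2 (mem_center_iff.1 hx g)
    obtain ⟨_ | j, -, e⟩ := (Nat.dvd_prime_pow hp).1 ((index_dvd_of_le l).trans
      ((relIndex_dvd_index_of_normal _ _).trans z))
    · exact absurd (fun x hx => mem_cent1.2 ((mem_ker_cm a (x := ⟨x, hx⟩)).1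
        ((index_eq_one.1 e).ge (mem_top _))).symm) (na g w)
    · exact ⟨j, by rw [index_fx, ← index_ker, e]⟩
  have cF : ∀ g, g ∉ A → p * ♯(fx a g) ≤ Nat.card (A →* ℂˣ) := fun g w => by
    obtain ⟨j, e⟩ := iF g w
    rw [← (fx a g).index_mul_card, e]
    exact Nat.mul_le_mul_right _ (Nat.le_self_pow j.succ_ne_zero p)
  have key : ∀ g, g ∉ A → (fx a g).index = p := fun g₀ w₀ => by
    obtain ⟨y, hy⟩ : ∃ y, y ∉ A ⊔ zpowers g₀ := by
      by_contra! v; exact nc g₀ (eq_top_iff.2 fun y _ => v y)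
    have yA : y ∉ A := fun v => hy (mem_sup_left v)
    have gM : g₀ ∉ A ⊔ zpowers y := fun v => hy
      (((eM g₀ w₀ _ le_sup_left v).resolve_left (nc y)).le (mem_sup_right (mem_zpowers y)))
    obtain ⟨H, lH, iH⟩ : ∃ H, fx a y ≤ H ∧ H.index = p := by
      obtain ⟨j, e⟩ := iF y yA
      have : (fx a y).Normal := ⟨fun n h g => by rwa [mul_inv_cancel_comm]⟩
      obtain ⟨H, -, x⟩ := exists_normal_index_prime (G := (A →* ℂˣ) ⧸ fx a y) hp (by
        rw [(commutator_eq_bot_iff_center_eq_top _).2 CommGroup.center_eq_top, index_bot,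
          ← index_eq_card, e]
        exact dvd_pow_self p j.succ_ne_zero)
      exact ⟨H.comap (QuotientGroup.mk' _), (QuotientGroup.ker_mk' _).ge.trans (ker_le_comap _ _),
        by rw [index_comap_of_surjective _ (QuotientGroup.mk'_surjective _), x]⟩
    have : H.Normal := ⟨fun n h g => by rwa [mul_inv_cancel_comm]⟩
    set M := A ⊔ zpowers y with hM
    have dc := Finset.sum_card_bipartiteAbove_eq_sum_card_bipartiteBelow
      (s := Finset.univ.filter (· ∉ M)) (t := Finset.univ.filter (· ∉ H)) fun g l => g ∈ T l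
    simp only [Finset.bipartiteAbove, Finset.bipartiteBelow, Finset.filter_filter] at dc
    have lo : ∀ l ∈ Finset.univ.filter (· ∉ H),
        (p - 1) * ♯A ≤ (Finset.univ.filter fun g => g ∉ M ∧ g ∈ T l).card := fun l hl => by
      have e : T l ⊓ M = A := le_antisymm (fun g hg => by
        by_contra v
        have := (eM g v (T l ⊓ M) (le_inf (TA l) le_sup_left) hg).elim
          (fun u => (u ▸ mem_top y : y ∈ T l ⊓ M).1) fun u => (show y ∈ T l ⊓ M from
            ((eM g v M le_sup_left hg.2).resolve_left (nc y)).trans u.symm ▸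
              mem_sup_right (mem_zpowers y)).1
        exact (Finset.mem_filter.1 hl).2 (lH ((mem_fx a).2 this))) (le_inf (TA l) le_sup_left)
      have x := card_diff (T l) M
      rw [e, ← card_mul_relIndex (TA l)] at x
      obtain ⟨_ | j, -, v⟩ := (Nat.dvd_prime_pow hp).1 (i ▸ relIndex_dvd_index_of_normal A (T l))
      · exact absurd (relIndex_eq_one.1 v) (Tn l)
      have := Nat.mul_le_mul_left (♯A) (v ▸ Nat.le_self_pow j.succ_ne_zero p : p ≤ A.relIndex (T l))
      rw [Nat.sub_one_mul, mul_comm]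
      omega
    have up : ∀ g, p * (Finset.univ.filter fun l => l ∉ H ∧ g ∈ T l).card + ♯(fx a g) ≤
        p * ♯(fx a g) := fun g => by
      have x := card_diff (fx a g) H
      rw [Finset.filter_congr (q := fun l => l ∉ H ∧ g ∈ T l) fun l _ => by rw [mem_fx]] at x
      have y := card_inf_mul_relIndex H (fx a g)
      have : H.relIndex (fx a g) ≤ p := iH ▸ Nat.le_of_dvd (Nat.pos_of_ne_zero
        index_ne_zero_of_finite) (relIndex_dvd_index_of_normal _ _)
      rw [inf_comm] at y
      nlinarith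
    have x := card_diff (⊤ : Subgroup G) M
    have x' := card_diff (⊤ : Subgroup (A →* ℂˣ)) H
    rw [Finset.filter_congr (q := (· ∉ M)) fun l _ => by simp, top_inf_eq, card_top] at x
    rw [Finset.filter_congr (q := (· ∉ H)) fun l _ => by simp, top_inf_eq, card_top] at x'
    have y := M.index_mul_card
    have y' := H.index_mul_card
    have y'' := A.index_mul_card
    rw [iM _ yA] at y
    rw [iH] at y'
    rw [i] at y''
    have lo' := Finset.card_nsmul_le_sum _ _ _ lo
    rw [← dc, smul_eq_mul] at lo'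
    by_contra w
    obtain ⟨_ | j, e⟩ := iF g₀ w₀
    · exact w (by simpa using e)
    have st : ∑ g ∈ Finset.univ.filter (· ∉ M),
        p * (Finset.univ.filter fun l => l ∉ H ∧ g ∈ T l).card <
        ∑ g ∈ Finset.univ.filter (· ∉ M), (p - 1) * ♯H := by
      refine Finset.sum_lt_sum (fun g hg => ?_) ⟨g₀, by simpa using gM, ?_⟩
      · have := Nat.le_of_mul_le_mul_left ((cF g fun v => (Finset.mem_filter.1 hg).2
          (mem_sup_left v)).trans y'.ge) hp.pos
        have := up g
        obtain ⟨q, rfl⟩ := Nat.exists_eq_succ_of_ne_zero hp.ne_zero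
        simp only [Nat.succ_eq_add_one, Nat.add_sub_cancel] at *
        nlinarith
      · have u := (fx a g₀).index_mul_card
        rw [e, ← y', pow_succ', mul_assoc] at u
        have u := Nat.eq_of_mul_eq_mul_left hp.pos u
        have : ♯(fx a g₀) < ♯H := u ▸ lt_mul_of_one_lt_left (card_pos' _)
          (Nat.one_lt_pow j.succ_ne_zero hp.one_lt)
        have := up g₀
        obtain ⟨q, rfl⟩ := Nat.exists_eq_add_of_le' hp.two_le
        simp only [show q + 2 - 1 = q + 1 from rfl] at *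
        nlinarith
    rw [← Finset.mul_sum, Finset.sum_const, smul_eq_mul] at st
    obtain ⟨q, rfl⟩ := Nat.exists_eq_succ_of_ne_zero hp.ne_zero
    simp only [Nat.succ_eq_add_one, Nat.add_sub_cancel] at *
    have e1 : ♯M = (q + 1) * ♯A := Nat.eq_of_mul_eq_mul_left q.succ_pos (by linarith)
    have e2 : (Finset.univ.filter (· ∉ M)).card = q * ((q + 1) * ♯A) := by linarith
    have e3 : (Finset.univ.filter (· ∉ H)).card = q * ♯H := by linarith
    rw [e2] at st
    rw [e3] at lo'
    nlinarith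
  have cX : ∀ g, g ∉ A → ♯(cm a g).range = p := fun g w => by rw [← index_fx, key g w]
  have iK : ∀ g, g ∉ A → (cm a g).ker.index = p := fun g w => by rw [index_ker, cX g w]
  obtain ⟨x, hx⟩ : ∃ x, x ∉ A := by
    by_contra! v; exact nc 1 (eq_top_iff.2 fun y _ => mem_sup_left (v y))
  obtain ⟨l, hl⟩ : ∃ l, l ∉ fx a x := by
    by_contra! v; exact hp.ne_one ((key x hx).symm.trans (index_eq_one.2 (eq_top_iff.2 fun l _ => v l)))
  obtain ⟨y, hy, yA⟩ := SetLike.not_le_iff_exists.1 (Tn l)
  have xT : x ∉ T l := fun v => hl ((mem_fx a).2 v)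
  have xy : x * y ∉ A := fun v => xT ((mul_mem_cancel_right hy).1 (TA l v))
  have le : (cm a x).ker ≤ (cm a y).ker := by
    by_contra v
    obtain ⟨s, s1, s2⟩ := SetLike.not_le_iff_exists.1 v
    obtain ⟨t, t1, t2⟩ := SetLike.not_le_iff_exists.1 (show ¬ (cm a y).ker ≤ (cm a x).ker from
      fun u => v (eq_of_le_of_index_le u ((iK y yA).trans (iK x hx).symm).le).ge)
    have eq : ∀ {U V : Subgroup A} {c : A}, ♯U = p → ♯V = p → c ∈ U → c ∈ V → c ≠ 1 → U = V :=
      fun u v a b c => (zpowers_eq_of_prime (u ▸ hp) a c).symm.trans (zpowers_eq_of_prime (v ▸ hp) b c)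
    have e1 : cm a (x * y) t = cm a x t := Subtype.ext (by
      rw [cm_coe, cm_coe, mul_assoc x y, (mem_ker_cm a).1 t1]; group)
    have e2 : cm a (x * y) s = cm a y s := Subtype.ext (by
      have c := a.mul_comm (d (comm_mem_der x⁻¹ y⁻¹)) s.2
      rw [cm_coe, cm_coe, show x * y = y * x * (x⁻¹ * y⁻¹ * x⁻¹⁻¹ * y⁻¹⁻¹) by group,
        mul_assoc (y * x), c, mul_inv_rev (y * x), ← mul_assoc, mul_assoc (y * x),
        mul_assoc (y * x), mul_inv_cancel_right, ← mul_assoc, mul_assoc y x, (mem_ker_cm a).1 s1]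
      group)
    have := (eq (cX _ hx) (cX _ xy) ⟨t, rfl⟩ ⟨t, e1⟩ t2).trans
      (eq (cX _ xy) (cX _ yA) ⟨s, e2⟩ ⟨s, rfl⟩ s2)
    exact hl (by rw [fx, this]; exact (mem_fx a).2 hy)
  have : center G = (cm a x).ker.map A.subtype := le_antisymm (fun c hc => by
    have : c ∈ A := by
      by_contra v
      exact na c v fun g _ => mem_cent1.2 (mem_center_iff.1 hc g)
    exact ⟨⟨c, this⟩, (mem_ker_cm a).2 (mem_center_iff.1 hc x), rfl⟩) (by
    rintro _ ⟨c, hc, rfl⟩
    have := (eM y yA (𝐂₁ (c : G)) (a.trans (cent_le_cent1 c.2))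
      (mem_cent1.2 ((mem_ker_cm a).1 (le hc)))).resolve_right fun v =>
        xT (sup_le (TA l) (zpowers_le.2 hy) (v ▸ mem_cent1.2 ((mem_ker_cm a).1 hc)))
    exact mem_center_iff.2 fun g => mem_cent1.1 (this ▸ mem_top g))
  rw [this, index_map_subtype, iK x hx, i, ← pow_succ']

theorem cd_prime (hp : p.Prime) (h : 𝐜𝐝 G ⊆ {1, p}) (hm : p ∈ 𝐜𝐝 G) :
    (∃ A : Subgroup G, A.Normal ∧ Abel A ∧ A.index = p) ∨ (center G).index = p ^ 3 := by
  refine or_iff_not_imp_left.2 fun na => ?_
  have nb : ∀ N : Subgroup G, commutator G ≤ N → N.index = p → ¬ Abel N := fun N x y z =>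
    na ⟨N, normal_of_der_le x, z, y⟩
  have s := isSolvable_of_two h
  have b : Bd G p := fun d hd => (h hd).elim (fun e => e ▸ hp.pos) fun e => (e : d = p).le
  have c : ¬ commutator G ≤ ⊥ := fun e => hp.ne_one (der_eq_bot_iff_cd.1 (le_bot_iff.1 e) hm)
  obtain ⟨N, x, y, z⟩ | ⟨q, e, k, hq, x, B, y, -, z⟩ := two_cases h hm hp.ne_one
  · exact absurd z (nb N x y)
  obtain rfl : q = p := ((Nat.prime_dvd_prime_iff_eq hq hp).1
    (x ▸ dvd_pow_self q fun w => hp.ne_one (by rw [x, w, pow_zero])))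
  obtain ⟨K, _, -, m⟩ := exists_minNA c
  have sj := QuotientGroup.mk'_surjective K
  obtain ⟨f, u, v⟩ := m.exists_cd
  obtain rfl : f = q := (h (cd_quot K u)).resolve_left v
  by_cases t : ∃ r, r.Prime ∧ IsPGroup r (G ⧸ K)
  swap
  · obtain ⟨N, r, w⟩ := m.frobQ inferInstance fun r hr w => t ⟨r, hr, w⟩
    exact absurd (w.abel h).2 (nb N w.der (w.abel h).1)
  obtain ⟨r, hr, t⟩ := t
  have dz := m.le_center hr t
  obtain ⟨-, -, -, -, e⟩ | ⟨w, -, e⟩ := m.cases (m.abel inferInstance)
  swap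
  · obtain ⟨g, hg⟩ : ∃ g, g ∉ commutator (G ⧸ K) := by
      by_contra! w; exact v ((e f u v).trans (index_eq_one.2 (eq_top_iff.2 fun g _ => w g)))
    exact absurd (le_bot_iff.1 (w g hg ▸ le_inf le_rfl fun c hc =>
      mem_cent1.2 (mem_center_iff.1 (dz hc) g).symm)) m.ne
  have i : ((center _).comap (QuotientGroup.mk' K)).index = f ^ 2 := by
    rw [index_comap_of_surjective _ sj, e f u v]
  have dA : commutator G ≤ (center _).comap (QuotientGroup.mk' K) :=
    map_le_iff_le_comap.1 ((map_der sj).le.trans dz)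
  have a : Abel ((center _).comap (QuotientGroup.mk' K)) := abel_iff_cd.2 fun d hd => by
    obtain ⟨j, -, w⟩ := exists_cd_mul hd
    by_contra d1
    obtain rfl : d = f := (hp.eq_one_or_self_of_dvd d (Dvd.intro_left _
      ((h w).resolve_left fun v => d1 (Nat.eq_one_of_mul_eq_one_left v)))).resolve_left d1
    obtain ⟨θ, x, y⟩ := mem_cd.1 hd
    obtain ⟨χ, i, j⟩ := b.exists_ext x y
    have := b _ (mul_mem_of_center u (irr_isCharacter i) ((congrFun j 1).trans y) (j ▸ x))
    nlinarith [hp.two_le]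
  have ab : ∀ g, (center _).comap (QuotientGroup.mk' K) ≤ 𝐂₁ g →
      Abel ((center _).comap (QuotientGroup.mk' K) ⊔ zpowers g) := fun g w =>
    a.sup (abel_zpowers g) (by rwa [cent_zpowers])
  have nc : ∀ g, (center _).comap (QuotientGroup.mk' K) ⊔ zpowers g ≠ ⊤ := fun g w => by
    have := congrArg (map (QuotientGroup.mk' K)) w
    rw [Subgroup.map_sup, map_comap_eq_self_of_surjective sj, MonoidHom.map_zpowers,
      map_top_of_surjective _ sj] at this
    have ab : Abel (⊤ : Subgroup (G ⧸ K)) := this ▸ Abel.sup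
      (abel_of_forall fun x _ y hy => mem_center_iff.1 hy x) (abel_zpowers _)
      fun x hx => mem_cent.2 fun y _ => mem_center_iff.1 hx y
    exact m.ne (der_eq_bot.2 ab)
  refine center_index hp a i dA b ((index_dvd_of_le y).trans z.dvd) nc fun g w l => ?_
  obtain ⟨j, l', e⟩ := (Nat.dvd_prime_pow hp).1 (i ▸ index_dvd_of_le
    (le_sup_left : _ ≤ (center _).comap (QuotientGroup.mk' K) ⊔ zpowers g))
  obtain rfl | rfl | rfl : j = 0 ∨ j = 1 ∨ j = 2 := by omega
  · exact nc g (index_eq_one.1 e)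
  · exact nb _ (dA.trans le_sup_left) (by simpa using e) (ab g l)
  · exact w ((eq_of_le_of_index_le le_sup_left (i.trans e.symm).le).ge
      (mem_sup_right (mem_zpowers g)))

end CF.Fgs2.Isa
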