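import Mathlib

/-! `-1` is a sum of two squares in a field containing `√5` and a nontrivial `p`-th root of unity
(`p ≠ 2, 5` prime), via Gauss' identity `4 Φ_ℓ = A² + ℓ B²`. -/

namespace CF.Fgs2

open Finset

/-- Gauss: for `ℓ ≡ 3 mod 4` prime, `(1 - x ^ ℓ) / (1 - x) = a² + ℓ b²`. -/
theorem gauss_cyclo {K : Type*} [Field K] [CharZero K] {l : ℕ} (hl : l.Prime) (h3 : l % 4 = 3) (x : K) :
    ∃ a b : K, (1 - x) * (a ^ 2 + l * b ^ 2) = 1 - x ^ l := by
  classical
  have := Fact.mk hl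
  have : NeZero l := ⟨hl.ne_zero⟩
  have : NeZero (l : K) := ⟨by exact_mod_cast hl.ne_zero⟩
  let L := CyclotomicField l K
  have : IsGalois K L := IsCyclotomicExtension.isGalois {l} K L
  have : FiniteDimensional K L := IsCyclotomicExtension.finiteDimensional {l} K L
  have hζ := IsCyclotomicExtension.zeta_spec l K L
  set ζ := IsCyclotomicExtension.zeta l K L
  have : CharZero L := charZero_of_injective_algebraMap (algebraMap K L).injective
  let ψ : AddChar (ZMod l) L := AddChar.zmodChar l hζ.pow_eq_one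
  have hψ : ψ.IsPrimitive := AddChar.zmodChar_primitive_of_primitive_root l hζ
  have hc2 : ringChar (ZMod l) ≠ 2 := by rw [ZMod.ringChar_zmod_n]; omega
  let χ₀ := quadraticChar (ZMod l)
  let χ : MulChar (ZMod l) L := χ₀.ringHomComp (Int.castRingHom L)
  have hχ1 : χ ≠ 1 := by
    rw [MulChar.ringHomComp_ne_one_iff (RingHom.injective_int _)]; exact quadraticChar_ne_one hc2
  have hχ2 : χ.IsQuadratic := (quadraticChar_isQuadratic _).comp _
  have hm1 : χ₀ (-1) = -1 := by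
    rw [quadraticChar_neg_one_iff_not_isSquare, FiniteField.isSquare_neg_one_iff, ZMod.card]; omega
  let g := gaussSum χ ψ
  have hg : g ^ 2 = -l := by
    rw [gaussSum_sq hχ1 hχ2 hψ, ZMod.card]
    simp only [χ, MulChar.ringHomComp_apply, hm1, map_neg, map_one, neg_one_mul]
  let y := algebraMap K L x
  let P : ℤ → L := fun e => ∏ a ∈ univ.filter (fun a => χ₀ a = e), (1 - ψ a * y)
  have hP : (1 - y) * (P 1 * P (-1)) = 1 - y ^ l := by
    have h1 : 1 - y ^ l = ∏ a : ZMod l, (1 - ψ a * y) := by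
      have := hζ.pow_sub_pow_eq_prod_sub_mul 1 y hl.pos
      rw [one_pow] at this
      rw [this]
      symm
      refine prod_nbij (fun a => ψ a) (fun a _ => ?_) (fun a _ b _ h => ?_) (fun z hz => ?_) (fun _ _ => rfl)
      · rw [Polynomial.mem_nthRootsFinset hl.pos, AddChar.zmodChar_apply, ← pow_mul, mul_comm, pow_mul,
          hζ.pow_eq_one, one_pow]
      · exact ZMod.val_injective _ (hζ.pow_inj (ZMod.val_lt a) (ZMod.val_lt b) h)
      · obtain ⟨i, -, hi⟩ := hζ.eq_pow_of_pow_eq_one ((Polynomial.mem_nthRootsFinset hl.pos _).1 hz)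
        exact ⟨i, by simp, by simp only [ψ, AddChar.zmodChar_apply', hi]⟩
    rw [h1, ← prod_filter_mul_prod_filter_not univ (fun a : ZMod l => a = 0),
      ← prod_filter_mul_prod_filter_not (univ.filter fun a : ZMod l => ¬ a = 0) (fun a => χ₀ a = 1)]
    congr 1
    · simp [filter_eq']
    · congr 1
      · refine prod_congr ?_ fun _ _ => rfl
        ext a; simp only [mem_filter, mem_univ, true_and]
        refine ⟨fun h => ⟨?_, h⟩, fun h => h.2⟩
        rintro rfl; simp [χ₀] at h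
      · refine prod_congr ?_ fun _ _ => rfl
        ext a; simp only [mem_filter, mem_univ, true_and]
        refine ⟨fun h => ⟨?_, by rw [h]; norm_num⟩, fun h => (quadraticChar_dichotomy h.1).resolve_left h.2⟩
        rintro rfl; simp [χ₀] at h
  have hσ : ∀ σ : Gal(L/K), ∃ c : (ZMod l)ˣ, ∀ a, σ (ψ a) = ψ (c * a) := by
    intro σ
    obtain ⟨i, -, hi⟩ := hζ.eq_pow_of_pow_eq_one (ξ := σ ζ) (by rw [← map_pow, hζ.pow_eq_one, map_one])
    have h1 : ∀ a, σ (ψ a) = ψ (i * a) := by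
      intro a
      conv_rhs => rw [← ZMod.natCast_zmod_val a, ← Nat.cast_mul]
      simp only [ψ, AddChar.zmodChar_apply', AddChar.zmodChar_apply hζ.pow_eq_one a, map_pow, ← hi, pow_mul]
    have h0 : (i : ZMod l) ≠ 0 := by
      intro h
      have := h1 1
      rw [h, zero_mul, AddChar.map_zero_eq_one, map_eq_one_iff _ σ.injective] at this
      exact one_ne_zero ((AddChar.IsPrimitive.zmod_char_eq_one_iff l hψ 1).1 this)
    exact ⟨Units.mk0 _ h0, h1⟩
  have key : ∀ σ : Gal(L/K), ∃ e : ℤ, (e = 1 ∨ e = -1) ∧ σ g = e * g ∧ ∀ d, σ (P d) = P (e * d) := by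
    intro σ
    obtain ⟨c, hc⟩ := hσ σ
    have hd := quadraticChar_dichotomy c.ne_zero
    refine ⟨χ₀ c, hd, ?_, fun d => ?_⟩
    · have h1 : σ g = gaussSum χ (ψ.mulShift c) := by
        simp only [g, gaussSum, map_sum, map_mul, hc, AddChar.mulShift_apply]
        refine sum_congr rfl fun a _ => ?_
        simp [χ]
      have h2 := gaussSum_mulShift χ ψ c
      have h3 : χ c = (χ₀ c : ℤ) := by simp [χ]
      rw [h1]
      change χ c * _ = g at h2
      rw [h3] at h2
      rcases hd with h | h <;> simp only [χ₀, h] at h2 ⊢ <;> push_cast at h2 ⊢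
      · linear_combination h2
      · linear_combination -h2
    · simp only [P, map_prod, map_sub, map_one, map_mul, hc, y, AlgEquiv.commutes]
      refine prod_nbij (fun a => c * a) (fun a ha => ?_) (fun a _ b _ h => c.mul_right_inj.1 h)
        (fun z hz => ⟨(c⁻¹ : (ZMod l)ˣ) * z, ?_, c.mul_inv_cancel_left z⟩) (fun _ _ => rfl)
      · simp only [mem_filter, mem_univ, true_and, map_mul] at ha ⊢
        rw [ha]
      · simp only [coe_filter, mem_univ, true_and, Set.mem_setOf_eq, map_mul] at hz ⊢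
        have h4 : χ₀ ↑c⁻¹ * χ₀ c = 1 := by rw [← map_mul, Units.inv_mul, map_one]
        rw [hz, ← mul_assoc, h4, one_mul]
  obtain ⟨A, hA⟩ := (IsGalois.mem_range_algebraMap_iff_fixed (F := K) (P 1 + P (-1))).2 fun σ => by
    obtain ⟨e, h | h, -, h2⟩ := key σ <;> simp [h2, h, add_comm]
  obtain ⟨B, hB⟩ := (IsGalois.mem_range_algebraMap_iff_fixed (F := K) ((P 1 - P (-1)) * g)).2 fun σ => by
    obtain ⟨e, h | h, h1, h2⟩ := key σ
    · simp [h1, h2, h]
    · simp only [map_mul, map_sub, h1, h2, h]; simp; ring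
  refine ⟨A / 2, B / (2 * l), (algebraMap K L).injective ?_⟩
  have hl0 : (l : L) ≠ 0 := by exact_mod_cast hl.ne_zero
  simp only [map_mul, map_sub, map_one, map_add, map_pow, map_div₀, hA, hB, map_natCast, map_ofNat]
  change (1 - y) * _ = 1 - y ^ l
  rw [← hP]
  congr 1
  have h2 : (2 : L) ≠ 0 := two_ne_zero
  have e1 : (P 1 + P (-1)) / 2 * 2 = P 1 + P (-1) := div_mul_cancel₀ _ h2
  have e2 : (P 1 - P (-1)) * g / (2 * l) * (2 * l) = (P 1 - P (-1)) * g := div_mul_cancel₀ _ (mul_ne_zero h2 hl0)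
  generalize (P 1 + P (-1)) / 2 = u, (P 1 - P (-1)) * g / (2 * l) = v at e1 e2 ⊢
  apply mul_left_cancel₀ (mul_ne_zero (pow_ne_zero 2 h2) hl0)
  linear_combination (l : L) * (u * 2 + (P 1 + P (-1))) * e1 + (v * (2 * l) + (P 1 - P (-1)) * g) * e2
    + (P 1 - P (-1)) ^ 2 * hg

/-- Thue's lemma for `x² + 5 y²`. -/
theorem thue_five {l : ℕ} (hl : l.Prime) {t : ZMod l} (ht : t * t = -5) :
    ∃ (r u : ℤ) (k : ℕ), 1 ≤ k ∧ k ≤ 5 ∧ r ^ 2 + 5 * u ^ 2 = k * l := by
  have : NeZero l := ⟨hl.ne_zero⟩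
  let s := l.sqrt
  have h1 : l < (s + 1) * (s + 1) := Nat.lt_succ_sqrt l
  have h2 : s * s < l := lt_of_le_of_ne (Nat.sqrt_le l) fun h =>
    hl.prime.not_isSquare ⟨s, h.symm⟩
  obtain ⟨⟨a, b⟩, ⟨c, d⟩, hne, h⟩ := Fintype.exists_ne_map_eq_of_card_lt
    (fun p : Fin (s + 1) × Fin (s + 1) => ((p.1 : ℕ) : ZMod l) - t * (p.2 : ℕ)) (by simpa using h1)
  have hd : (l : ℤ) ∣ ((a : ℤ) - c) ^ 2 + 5 * ((b : ℤ) - d) ^ 2 := by
    rw [← ZMod.intCast_zmod_eq_zero_iff_dvd]
    push_cast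
    simp only at h
    have : ((a : ℕ) : ZMod l) - (c : ℕ) = t * ((b : ℕ) - (d : ℕ)) := by linear_combination h
    rw [this]; linear_combination (((b : ℕ) : ZMod l) - (d : ℕ)) ^ 2 * ht
  obtain ⟨k, hk⟩ := hd
  have ha := a.2; have hb := b.2; have hc := c.2; have hd := d.2
  have e1 : ((a : ℤ) - c) ^ 2 ≤ s * s := by nlinarith
  have e2 : ((b : ℤ) - d) ^ 2 ≤ s * s := by nlinarith
  have e3 : 0 < ((a : ℤ) - c) ^ 2 + 5 * ((b : ℤ) - d) ^ 2 := by
    by_contra! h0
    have f1 : (a : ℤ) - c = 0 := by nlinarith [sq_nonneg ((a : ℤ) - c), sq_nonneg ((b : ℤ) - d)]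
    have f2 : (b : ℤ) - d = 0 := by nlinarith [sq_nonneg ((a : ℤ) - c), sq_nonneg ((b : ℤ) - d)]
    exact hne (Prod.ext (Fin.ext (by simp only; omega)) (Fin.ext (by simp only; omega)))
  have hl0 : (0 : ℤ) < l := by exact_mod_cast hl.pos
  have h2' : (s : ℤ) * s < l := by exact_mod_cast h2
  have k1 : 0 < k := by nlinarith
  have k2 : k < 6 := by nlinarith
  exact ⟨_, _, k.toNat, by omega, by omega, by rw [hk, Int.toNat_of_nonneg k1.le, mul_comm]⟩

theorem sq_add_sq_of_five {K : Type*} [Field K] [CharZero K] {s : K} (hs : s * s = 5) {l : ℕ}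
    (hl : l.Prime) (h : l % 20 = 3) : ∃ u v : K, u ^ 2 + v ^ 2 = l := by
  have := Fact.mk hl
  have : Fact (Nat.Prime 5) := ⟨by norm_num⟩
  have h5 : IsSquare (-5 : ZMod l) := by
    have h1 : legendreSym l (-1) = -1 := by
      rw [legendreSym.at_neg_one (by omega), ZMod.χ₄_nat_three_mod_four (by omega)]
    have h2 : legendreSym l 5 = -1 := by
      have := legendreSym.quadratic_reciprocity_one_mod_four (p := 5) (q := l) (by norm_num) (by omega)
      push_cast at this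
      rw [this, legendreSym.mod, show (l : ℤ) % (5 : ℕ) = 3 by omega]
      norm_num [jacobiSym.legendreSym.to_jacobiSym]
    have h3 : legendreSym l (-5) = 1 := by
      rw [show (-5 : ℤ) = -1 * 5 by norm_num, legendreSym.mul, h1, h2]; norm_num
    have h0 : ((-5 : ℤ) : ZMod l) ≠ 0 := by
      intro h0
      rw [(legendreSym.eq_zero_iff l _).2 h0] at h3; norm_num at h3
    simpa using (legendreSym.eq_one_iff l h0).1 h3
  obtain ⟨t, ht⟩ := h5
  obtain ⟨r, u, k, k1, k5, e⟩ := thue_five hl ht.symm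
  have e' : (r : K) ^ 2 + 5 * u ^ 2 = k * l := by exact_mod_cast congrArg (Int.cast : ℤ → K) e
  have two : ∀ a b c d : K, (a ^ 2 + b ^ 2) * (c ^ 2 + d ^ 2) = l → ∃ u v : K, u ^ 2 + v ^ 2 = l :=
    fun a b c d h => ⟨a * c - b * d, a * d + b * c, by linear_combination h⟩
  have e2 : (r : K) ^ 2 + (s * u) ^ 2 = k * l := by linear_combination e' + (u : K) ^ 2 * hs
  interval_cases k
  · exact two r (s * u) 1 0 (by rw [e2]; norm_num)
  · exact two r (s * u) (1 / 2) (1 / 2) (by rw [e2]; push_cast; ring)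
  · refine two (r - s * (s * u)) (s * r + s * u) (1 / 6) (1 / 6) ?_
    have : ((r : K) - s * (s * u)) ^ 2 + (s * r + s * u) ^ 2 = (1 + s * s) * (r ^ 2 + (s * u) ^ 2) := by ring
    rw [this, e2, hs]; push_cast; ring
  · exact two r (s * u) (1 / 2) 0 (by rw [e2]; push_cast; ring)
  · exact two r (s * u) (1 / 5) (2 / 5) (by rw [e2]; push_cast; ring)

theorem neg_one_sq_add_sq {K : Type*} [Field K] [CharZero K] {s x : K} (hs : s * s = 5) {p : ℕ}
    (hp : p.Prime) (h2 : p ≠ 2) (h5 : p ≠ 5) (hx : x ^ p = 1) (h1 : x ≠ 1) :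
    ∃ a b : K, a ^ 2 + b ^ 2 = -1 := by
  have hc : Nat.Coprime 20 p := by
    rw [show 20 = 2 ^ 2 * 5 by norm_num]
    exact Nat.Coprime.mul_left (Nat.Coprime.pow_left _ ((Nat.coprime_primes Nat.prime_two hp).2 h2.symm))
      ((Nat.coprime_primes (by norm_num) hp).2 h5.symm)
  obtain ⟨a, ha1, ha2⟩ := Nat.chineseRemainder hc 3 (p - 1)
  have hp1 := hp.one_lt
  obtain ⟨l, -, hl, h⟩ := Nat.forall_exists_prime_gt_and_modEq 0 (q := 20 * p) (a := a) (by omega) (by
    refine Nat.Coprime.mul_right ?_ ?_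
    · rw [Nat.Coprime, ha1.gcd_eq]; norm_num
    · rw [Nat.Coprime, ha2.gcd_eq]
      exact (Nat.coprime_self_sub_left hp1.le).2 (by simp))
  have hl1 : l % 20 = 3 := (h.of_mul_right p).trans ha1
  have hl2 : l ≡ p - 1 [MOD p] := (h.of_mul_left 20).trans ha2
  have hxl : x ^ l * x = 1 := by
    rw [pow_eq_pow_mod l hx, hl2, ← pow_eq_pow_mod _ hx, ← pow_succ, Nat.sub_add_cancel hp1.le, hx]
  obtain ⟨c, d, e⟩ := gauss_cyclo hl (by omega) x
  obtain ⟨u, v, e2⟩ := sq_add_sq_of_five hs hl hl1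
  obtain ⟨m, hm⟩ := hp.odd_of_ne_two h2
  have hy : (x ^ (m + 1)) ^ 2 = x := by rw [← pow_mul, show (m + 1) * 2 = p + 1 by omega, pow_succ, hx, one_mul]
  set y := x ^ (m + 1)
  have e3 : x * (c ^ 2 + l * d ^ 2) = -1 := by
    apply mul_left_cancel₀ (sub_ne_zero.2 h1.symm)
    linear_combination x * e - hxl
  have e4 : (y * c) ^ 2 + (y * u * d) ^ 2 + (y * v * d) ^ 2 = -1 := by
    rw [← e2, ← hy] at e3; linear_combination e3
  generalize y * c = A, y * u * d = B, y * v * d = C at e4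
  by_cases h0 : 1 + A ^ 2 = 0
  · exact ⟨A, 0, by linear_combination h0⟩
  · refine ⟨(B + A * C) / (1 + A ^ 2), (C - A * B) / (1 + A ^ 2), ?_⟩
    field_simp
    linear_combination (1 + A ^ 2) * e4

end CF.Fgs2
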