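import Cfsg.Agent.Fgs1.HHPq
import Cfsg.Agent.Fgs2.MaxCent
import Cfsg.Agent.Solv.Crit

/-! Noncyclic coprime operator groups of order `r ^ 2` with abelian point stabilizers. -/

set_option autoImplicit false
set_option linter.unusedSectionVars false

namespace CF.Fgs2
open Subgroup CF.BG
open scoped commutatorElement Pointwise

universe u

section gen
variable {Γ : Type*} [Group Γ] [Finite Γ] {p : ℕ} {D T U K S : Subgroup Γ}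

theorem inf_cent_le_Phi (k : PiGrp {p} D) (n : T ≤ 𝐍 D) (c : (♯T).Coprime (♯D)) (e : D ≤ ⁅D, T⁆) :
    D ⊓ 𝐂 T ≤ 𝚽 D := by
  have nD : D ≤ 𝐍 (𝚽 D) := (Phi_normal D).norm
  have nT : T ≤ 𝐍 (𝚽 D) := le_norm_Phi n
  have h := (k.abelem_qt_Phi).abel.comm_inf_cent (qt_norm _ n) (coprime_qt _ c)
  rw [← qt_comm nD nT, le_antisymm (comm_le_left n) e] at h
  refine (qt_eq_bot (inf_le_left.trans nD)).1 (eq_bot_mono h (le_inf (qt_mono _ inf_le_left) ?_))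
  exact qt_cent _ inf_le_right

theorem npc_of_local (hp : p.Prime) (hp2 : p ≠ 2) (hS : Syl p S K)
    (hJ : NPC p (K ⊓ 𝐍 (Cfsg.thompsonSubgroupOf 0 S))) (hZ : NPC p (K ⊓ 𝐂 (𝐙 S))) : NPC p K := by
  have := Fact.mk hp
  rw [npc_iff hp] at hJ hZ ⊢
  refine PLocal.thompson_hasNPC hp2 (dvd_zero p) (S := S.subgroupOf K)
    ⟨le_top, ((piGrp_iff_isPGroup hp).1 hS.pi).comap_subtype, by rw [relIndex_top_right]; exact hS.not_dvd hp⟩ ?_ ?_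
  · rw [PLocal.thompson_subgroupOf hS.le,
      ← subgroupOf_normalizer_eq ((PLocal.thompson_le 0 S).trans hS.le), ← inf_subgroupOf_left]
    exact PLocal.hasNPC_subgroupOf hJ K
  · rw [Coprime.centralizer_subgroupOf_eq hS.le, subgroupOf, subgroupOf, ← comap_inf, ← subgroupOf,
      Coprime.centralizer_subgroupOf_eq (inf_le_left.trans hS.le), ← inf_subgroupOf_left]
    exact PLocal.hasNPC_subgroupOf hZ K

end gen

/-- minimal configuration -/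
structure Mt {Γ : Type*} [Group Γ] (r : ℕ) (A G : Subgroup Γ) : Prop where
  el : Elem r 2 A A
  n : A ≤ 𝐍 G
  pi : PiGrp {r}ᶜ G
  ab : ∀ X, Elem r 1 X A → Abel (G ⊓ 𝐂 X)
  fpf : G ⊓ 𝐂 A = ⊥
  sim' : ∀ W, W ≤ G → W ≠ ⊥ → W ≠ G → A ≤ 𝐍 W → Sol (G ⊓ 𝐍 W)
  ns : ¬ Sol G

/-- invariant `π`-subgroups -/
structure Iv {Γ : Type*} [Group Γ] (A G : Subgroup Γ) (π : Set ℕ) (U : Subgroup Γ) : Prop where
  le : U ≤ G
  n : A ≤ 𝐍 U
  pi : PiGrp π U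

namespace Mt
variable {Γ : Type*} [Group Γ] [Finite Γ] {r p q : ℕ} {π : Set ℕ}
  {A G T U W X Y L P Q K : Subgroup Γ}

theorem sim (h : Mt r A G) (W : Subgroup Γ) (hW : W ≤ G) (w1 : W ≠ ⊥) (s : Sol W) (n : A ≤ 𝐍 W) :
    Sol (G ⊓ 𝐍 W) := h.sim' W hW w1 (fun e => h.ns (e ▸ s)) n

theorem cop (h : Mt r A G) (hX : X ≤ A) (hU : U ≤ G) : (♯X).Coprime (♯U) :=
  PiNat.coprime (h.el.pi.le hX) (h.pi.le hU)

theorem inv_cent (h : Mt r A G) (u : Iv A G π U) (hX : X ≤ A) : Iv A G π (U ⊓ 𝐂 X) :=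
  ⟨inf_le_left.trans u.le, norm_inf_cent u.n (h.el.abel.le_norm hX), u.pi.inf_left⟩

theorem le_of (h : Mt r A G) (hU : U ≤ G) (n : A ≤ 𝐍 U) (k : ∀ X, Elem r 1 X A → U ⊓ 𝐂 X ≤ L) : U ≤ L :=
  h.el.le_of_cent n (h.pi.le hU) k

theorem two (h : Mt r A G) (x : Elem r 1 X A) (y : Elem r 1 Y A) (e : X ≠ Y) (hU : U ≤ G) (a : U ≤ 𝐂 X)
    (b : U ≤ 𝐂 Y) : U = ⊥ :=
  eq_bot_mono h.fpf (le_inf hU ((h.el.dprod_two x y e).sup ▸ le_cent_sup a b))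

theorem kl0 (h : Mt r A G) (u : Iv A G {p} U) (t : Iv A G {p}ᶜ T) (n : T ≤ 𝐍 U) (x : Elem r 1 X A)
    (y : Elem r 1 Y A) (e : X ≠ Y) (c : T ≤ 𝐂 X) (f : U ⊓ 𝐂 Y ≤ 𝚽 U) : T ≤ 𝐂 U := by
  have nU : U ≤ 𝐍 (𝚽 U) := (Phi_normal U).norm
  have nT : T ≤ 𝐍 (𝚽 U) := le_norm_Phi n
  have nY : Y ≤ 𝐍 (𝚽 U) := le_norm_Phi (y.le.trans u.n)
  have cp : (♯T).Coprime (♯U) := PiNat.coprime' t.pi u.pi
  have rg : Reg T Y := y.reg (h.two x y e (inf_le_left.trans t.le) (inf_le_left.trans c) inf_le_right)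
  have k := (rg.qt (y.le.trans t.n) (𝚽 U)).cent_of_fpf_abel (qt_norm _ (y.le.trans t.n))
    u.pi.abelem_qt_Phi.abel (qt_norm _ (y.le.trans u.n)) (qt_norm _ n) (coprime_qt _ cp) (by
      rw [← qt_inf_cent' nY (y.le.trans u.n) (h.cop y.le ((Phi_le U).trans u.le)) (Or.inl y.abel.sol)]
      exact qt_of_le f)
  refine cent_of_comm_le_Phi n cp ?_
  rw [commutator_comm]
  exact (qt_cent_iff nT nU).1 k

theorem inv_comm (u : Iv A G π U) (nT : A ≤ 𝐍 T) (n : T ≤ 𝐍 U) : Iv A G π ⁅U, T⁆ :=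
  ⟨(comm_le_left n).trans u.le, norm_commutator u.n nT, u.pi.le (comm_le_left n)⟩

theorem kl (h : Mt r A G) (u : Iv A G {p} U) (t : Iv A G {p}ᶜ T) (n : T ≤ 𝐍 U) (x : Elem r 1 X A)
    (y : Elem r 1 Y A) (e : X ≠ Y) (c : T ≤ 𝐂 X) (f : U ⊓ 𝐂 Y ≤ 𝐂 T) : T ≤ 𝐂 U := by
  have cp : (♯T).Coprime (♯U) := PiNat.coprime' t.pi u.pi
  have w := inv_comm u t.n n
  have k := h.kl0 w t (norm_comm_right U T) x y e c
    ((le_inf inf_le_left ((inf_le_inf_right _ (comm_le_left n)).trans f)).trans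
      (inf_cent_le_Phi w.pi (norm_comm_right U T) (coprime_mono cp le_rfl (comm_le_left n))
        (comm_comm_eq n cp (Or.inr u.pi.sol)).ge))
  exact cent_of_comm_le_cent n cp (cent_symm k)

theorem gen (h : Mt r A G) (u : Iv A G {p} U) (x : Elem r 1 X A)
    (k : ∀ Y, Elem r 1 Y A → Y ≠ X → U ⊓ 𝐂 Y ≤ L) : ⁅U, X⁆ ≤ L := by
  have n : X ≤ 𝐍 U := x.le.trans u.n
  have w := inv_comm u (h.el.abel.le_norm x.le) n
  have e : ⁅U, X⁆ ⊓ L = ⁅U, X⁆ := eq_of_le_sup_Phi inf_le_left (h.le_of w.le w.n fun Y y => by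
    by_cases e : Y = X
    · subst e
      exact (inf_cent_le_Phi w.pi (norm_comm_right U Y) (h.cop y.le w.le)
        (comm_comm_eq n (h.cop y.le u.le) (Or.inr u.pi.sol)).ge).trans le_sup_right
    · exact (le_inf inf_le_left ((inf_le_inf_right _ (comm_le_left n)).trans (k Y y e))).trans le_sup_left)
  exact e.ge.trans inf_le_right

theorem conj_triv (h : Mt r A G) {g : Γ} (hL : L ≤ G) (hg : g ∈ L ⊓ 𝐂 A) : g = 1 :=
  eq_one_of_mem_bot h.fpf ⟨hL hg.1, hg.2⟩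

theorem syl_le (h : Mt r A G) (s : Syl p P G) (n : A ≤ 𝐍 P) (u : Iv A G {p} U) : U ≤ P := by
  have c := h.cop le_rfl le_rfl
  obtain ⟨P', s', n', l⟩ := exists_syl_inv_le h.n c (Or.inl h.el.abel.sol) u.le u.pi u.n
  obtain ⟨g, hg, e⟩ := s.syl_conj_inv s' h.n c (Or.inl h.el.abel.sol) n n'
  rw [h.conj_triv le_rfl hg, cj_one] at e
  exact e ▸ l

theorem inv_norm (h : Mt r A G) (n : A ≤ 𝐍 W) : A ≤ 𝐍 (G ⊓ 𝐍 W) :=
  norm_inf h.n (n.trans (le_norm_self _))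

theorem join (h : Mt r A G) (hW : W ≤ G) (w1 : W ≠ ⊥) (sW : Sol W) (n : A ≤ 𝐍 W) (x : Iv A G π X)
    (y : Iv A G π Y) (a : X ≤ 𝐍 W) (b : Y ≤ 𝐍 W) : Iv A G π (X ⊔ Y) := by
  have s := h.sim W hW w1 sW n
  have c := h.cop le_rfl (inf_le_left : G ⊓ 𝐍 W ≤ G)
  obtain ⟨H, h1, n1, l1⟩ := exists_hall_inv_le (h.inv_norm n) c s (le_inf x.le a) x.pi x.n
  obtain ⟨H', h2, n2, l2⟩ := exists_hall_inv_le (h.inv_norm n) c s (le_inf y.le b) y.pi y.n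
  obtain ⟨g, hg, e⟩ := h1.conj_inv h2 (h.inv_norm n) c s n1 n2
  rw [h.conj_triv inf_le_left hg, cj_one] at e
  exact ⟨sup_le x.le y.le, norm_sup x.n y.n, h1.pi.le (sup_le l1 (e ▸ l2))⟩

theorem plen (h : Mt r A G) (hL : L ≤ G) (n : A ≤ 𝐍 L) (s : Sol L) (p : ℕ) : PLen1 p L := by
  have e := Fgs1.FS_two_of_pq n (Fgs1.pq_of_card h.el.prime h.el.prime (by rw [h.el.card, pow_two])
    fun _ => h.el.ab) (h.cop le_rfl hL) s (eq_bot_mono h.fpf (inf_le_inf_right _ hL))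
  have k := Fgs1.nil_FS L 1
  rw [e, Fgs1.FS_one] at k
  obtain ⟨S, hS⟩ := exists_syl p L
  have nF := (F_normal L).norm
  have n1 : L ≤ 𝐍 (𝐅 L ⊔ S) :=
    norm_sup_of_qt (hS.le.trans nF) nF (k.hall_normal (hS.qt nF)).norm
  refine pLen1_of_sup_normal hS ((F_normal L).O {p}ᶜ) (O_pi _ _) ?_
  have : 𝐅 L ⊔ S = 𝐎 {p}ᶜ (𝐅 L) ⊔ S := le_antisymm (sup_le ((F_dprod {p} L).sup.ge.trans
    (sup_le ((hS.le_of_normal ((F_normal L).O _) (O_pi _ _)).trans le_sup_right) le_sup_left)) le_sup_right)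
    (sup_le_sup_right (O_le _ _) _)
  exact this ▸ n1

theorem not_npc (h : Mt r A G) (s : Syl p P G) (p1 : P ≠ ⊥) : ¬ NPC p G := fun k => by
  have d := k.sdprod s
  by_cases e : 𝐎 {p}ᶜ G = ⊥
  · have := d.sup
    rw [e, bot_sup_eq] at this
    exact h.ns (this ▸ s.pi.sol)
  · refine h.ns ((h.sim' _ (O_le _ _) e (fun e' => p1 ?_) (le_norm_O _ h.n)).mono
      (le_inf le_rfl (O_normal _ _).norm))
    exact s.pi.eq_bot ((O_pi {p}ᶜ G).le (e'.symm ▸ s.le))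

theorem not_cent (h : Mt r A G) (s : Syl p P G) (n : A ≤ 𝐍 P) (p1 : P ≠ ⊥) (x : Elem r 1 X A) :
    ¬ P ≤ 𝐂 X := fun c => by
  refine h.not_npc s p1 (s.burnside ?_)
  have nX := x.le.trans (h.inv_norm n)
  rw [← comm_sup_inf_cent nX (h.cop x.le inf_le_left) (Or.inl x.abel.sol)]
  refine sup_le ((commutator_mono inf_le_right (cent_symm c)).trans (comm_le_right (norm_le_norm_cent P))) ?_
  exact (h.ab X x).cent (inf_le_inf_right _ inf_le_left) (le_inf s.le c)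

theorem odd_act (h : Mt r A G) (hp2 : p ≠ 2) (s : Syl p P G) (n : A ≤ 𝐍 P) (p1 : P ≠ ⊥) :
    ∃ X, Elem r 1 X A ∧ ∀ Y, Elem r 1 Y A → Y ≠ X → P ⊓ 𝐂 Y ≠ ⊥ := by
  have hp := s.pi.prime p1
  have sN := h.sim P s.le p1 s.pi.sol n
  obtain ⟨H, hH, nH⟩ := exists_hall_inv (h.inv_norm n) (h.cop le_rfl inf_le_left) sN {p}ᶜ
  have iH : Iv A G {p}ᶜ H := ⟨hH.le.trans inf_le_left, nH, hH.pi⟩
  by_cases c : H ≤ 𝐂 P
  · exfalso
    have sP := s.norm_self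
    have k : NPC p (G ⊓ 𝐍 P) := by
      have e : P ⊔ H = G ⊓ 𝐍 P := sP.sup_eq hH
      exact hH.hall_O (e.ge.trans (sup_le (norm_of_cent' c) (le_norm_self _)))
    have key : ∀ W, W ≤ P → W ≠ ⊥ → 𝐍 P ≤ 𝐍 W → NPC p (G ⊓ 𝐍 W) := fun W w w1 nW => by
      have sW := h.sim W (w.trans s.le) w1 (s.pi.le w).sol (n.trans nW)
      have pl := h.plen inf_le_left (h.inv_norm (n.trans nW)) sW p
      have sL : Syl p P (G ⊓ 𝐍 W) := s.of_le (le_inf s.le ((le_norm_self P).trans nW)) inf_le_left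
      have f := pl.frattini sL
      refine NPC.of_qt (O_normal {p}ᶜ _) (O_pi _ _) ?_
      have nO := (O_normal {p}ᶜ (G ⊓ 𝐍 W)).norm
      have : qt (𝐎 {p}ᶜ (G ⊓ 𝐍 W)) (G ⊓ 𝐍 W) = qt (𝐎 {p}ᶜ (G ⊓ 𝐍 W)) (G ⊓ 𝐍 W ⊓ 𝐍 P) := by
        rw [← qt_sup_left (inf_le_left.trans nO), f]
      rw [this]
      exact (k.mono (inf_le_inf_right _ inf_le_left)).qt (inf_le_left.trans nO)
    obtain ⟨z, hz, z1⟩ := exists_mem_ne_one (s.pi.center_ne_bot p1)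
    refine h.not_npc s p1 (npc_of_local hp hp2 s (key _ (PLocal.thompson_le 0 P) ?_
      (PLocal.normalizer_le_normalizer_thompson _ _)) ((key _ inf_le_left (s.pi.center_ne_bot p1)
        (norm_center P)).mono (inf_le_inf_left _ (cent_le_norm _))))
    exact ne_bot_of_mem (PLocal.centerThompson_le_thompson _ _
      (PLocal.mem_centerThompson_of_center hz.1 hz.2 (pow_zero z))) z1
  · obtain ⟨X, x, e⟩ : ∃ X, Elem r 1 X A ∧ ¬ H ⊓ 𝐂 X ≤ 𝐂 P := by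
      by_contra! k
      exact c (h.le_of iH.le nH k)
    refine ⟨X, x, fun Y y ne f => e (h.kl ⟨s.le, n, s.pi⟩ (h.inv_cent iH x.le)
      (inf_le_left.trans (hH.le.trans inf_le_right)) x y ne.symm inf_le_right (f ▸ bot_le))⟩

/-- maximal invariant `π`-subgroups -/
structure MxI (A G : Subgroup Γ) (π : Set ℕ) (K : Subgroup Γ) : Prop extends Iv A G π K where
  mx : ∀ L, Iv A G π L → K ≤ L → L = K

theorem exists_mxI (x : Iv A G π X) : ∃ K, MxI A G π K ∧ X ≤ K := by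
  obtain ⟨K, a, b, c⟩ := exists_maximal (P := Iv A G π) x
  exact ⟨K, ⟨b, c⟩, a⟩

theorem le_mx (h : Mt r A G) (k : MxI A G π K) (hW : W ≤ G) (w1 : W ≠ ⊥) (sW : Sol W) (n : A ≤ 𝐍 W)
    (a : K ≤ 𝐍 W) (x : Iv A G π X) (b : X ≤ 𝐍 W) : X ≤ K :=
  le_sup_right.trans (k.mx _ (h.join hW w1 sW n k.toIv x a b) le_sup_left).le

theorem O_pair (k : PiGrp {p, q} K) (e : p ≠ q) : 𝐎 {p}ᶜ K = 𝐎 {q} K :=
  O_congr fun t ht hd => by
    rcases k t ht hd with rfl | rfl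
    · simp [e]
    · simp [e.symm]

theorem iv_O (k : Iv A G π K) (ρ : Set ℕ) : Iv A G π (𝐎 ρ K) :=
  ⟨(O_le _ _).trans k.le, le_norm_O _ k.n, k.pi.le (O_le _ _)⟩

theorem iv_Z (k : Iv A G π K) : Iv A G π (𝐙 K) :=
  ⟨inf_le_left.trans k.le, k.n.trans (norm_center K), k.pi.inf_left⟩

theorem iv_inf (k : Iv A G π K) (n : A ≤ 𝐍 L) : Iv A G π (K ⊓ L) :=
  ⟨inf_le_left.trans k.le, norm_inf k.n n, k.pi.inf_left⟩

theorem le_of_centZ (h : Mt r A G) (k : MxI A G π K) (k1 : 𝐎 {p} K ≠ ⊥) (x : Iv A G π X)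
    (c : X ≤ 𝐂 (𝐙 (𝐎 {p} K))) : X ≤ K :=
  h.le_mx k (iv_Z (iv_O k.toIv _)).le ((O_pi _ _).center_ne_bot k1) (center_abel _).sol
    (iv_Z (iv_O k.toIv _)).n ((O_normal _ _).norm.trans (norm_center _)) x (norm_of_cent c)

theorem le_O_aux (h : Mt r A G) (e : p ≠ q) (k : MxI A G {p, q} K) (k1 : 𝐎 {p} K ≠ ⊥) (l : Iv A G {p, q} L)
    (sL : Sol L) (a : 𝐙 (𝐎 {p} K) ≤ L) (u : U ⊴ K) (uq : U ≤ 𝐎 {q} K) (uL : U ≤ L) : U ≤ 𝐎 {q} L := by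
  have i := iv_inf l (norm_cent (iv_Z (iv_O k.toIv {p})).n)
  have b := h.le_of_centZ k k1 i inf_le_right
  have c : U ≤ 𝐂 (𝐙 (𝐎 {p} K)) :=
    cent_mono (O_compl_cent_O {p} K) (by rw [O_pair k.pi e]; exact uq) inf_le_left
  rw [← O_pair l.pi e]
  refine (le_O (u.of_le (le_inf uL c) b) (((O_pi _ _).le uq).of_single_ne e.symm)).trans ?_
  exact sL.O_cent_le a ((O_pi {p} K).inf_left)

theorem pair_comm (k : MxI A G {p, q} K) : MxI A G {q, p} K := Set.pair_comm p q ▸ k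

theorem iv_pair_comm (k : Iv A G {p, q} K) : Iv A G {q, p} K := Set.pair_comm p q ▸ k

theorem bender (h : Mt r A G) (e : p ≠ q) (k : MxI A G {p, q} K) (k1 : 𝐎 {p} K ≠ ⊥) (k2 : 𝐎 {q} K ≠ ⊥)
    (l : MxI A G {p, q} L) (sK : Sol K) (sL : Sol L) (a : 𝐙 (𝐎 {p} K) ≤ L) (b : 𝐙 (𝐎 {q} K) ≤ L) : L = K := by
  have zn : ∀ t, 𝐙 (𝐎 {t} K) ⊴ K := fun t =>
    ⟨inf_le_left.trans (O_le _ _), (O_normal _ _).norm.trans (norm_center _)⟩
  have a1 := h.le_O_aux e k k1 l.toIv sL a (zn q) inf_le_left b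
  have a2 := h.le_O_aux e.symm (pair_comm k) k2 (iv_pair_comm l.toIv) sL b (zn p) inf_le_left a
  have l1 : 𝐎 {p} L ≠ ⊥ := ne_bot_mono ((O_pi _ _).center_ne_bot k1) a2
  have l2 : 𝐎 {q} L ≠ ⊥ := ne_bot_mono ((O_pi _ _).center_ne_bot k2) a1
  have cc : ∀ M : Subgroup Γ, PiGrp {p, q} M → 𝐎 {p} M ≤ 𝐂 (𝐎 {q} M) := fun M m => by
    rw [← O_pair m e]; exact O_cent_O_compl _ _
  have b1 : 𝐎 {p} L ≤ K := h.le_of_centZ k k2 (iv_O l.toIv _) (cent_mono (cc L l.pi) le_rfl a1)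
  have b2 : 𝐎 {q} L ≤ K := h.le_of_centZ k k1 (iv_O l.toIv _) (cent_mono (cent_symm (cc L l.pi)) le_rfl a2)
  have c1 : 𝐎 {p} L ≤ 𝐎 {p} K := h.le_O_aux e.symm (pair_comm l) l2 (iv_pair_comm k.toIv) sK
    (inf_le_left.trans b2) (O_normal _ _) le_rfl b1
  have c2 : 𝐎 {q} L ≤ 𝐎 {q} K := h.le_O_aux e l l1 k.toIv sK (inf_le_left.trans b1) (O_normal _ _) le_rfl b2
  have d1 : 𝐎 {p} K ≤ L := h.le_of_centZ l l2 (iv_O k.toIv _)
    (cent_mono (cc K k.pi) le_rfl (inf_le_left.trans c2))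
  have c3 : 𝐎 {p} K ≤ 𝐎 {p} L := h.le_O_aux e.symm (pair_comm k) k2 (iv_pair_comm l.toIv) sL b
    (O_normal _ _) le_rfl d1
  have e1 := le_antisymm c1 c3
  exact k.mx L l.toIv (h.le_mx l (iv_O l.toIv {p}).le l1 (O_pi _ _).sol (iv_O l.toIv {p}).n
    (O_normal _ _).norm k.toIv (e1 ▸ (O_normal _ _).norm))

theorem iv_left (u : Iv A G {p} U) : Iv A G {p, q} U := ⟨u.le, u.n, u.pi.of_single (by simp)⟩

theorem iv_right (u : Iv A G {q} U) : Iv A G {p, q} U := ⟨u.le, u.n, u.pi.of_single (by simp)⟩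

theorem loc (h : Mt r A G) (e : p ≠ q) (sol : ∀ L, Iv A G {p, q} L → Sol L) (k : MxI A G {p, q} K)
    (k1 : 𝐎 {p} K ≠ ⊥) (k2 : 𝐎 {q} K ≠ ⊥) (w : W ≤ 𝐎 {p} K) (w1 : W ≠ ⊥) (n : A ≤ 𝐍 W)
    (x : Iv A G {p, q} X) (b : X ≤ 𝐍 W) : X ≤ K := by
  have hW := w.trans ((O_le _ _).trans k.le)
  have sW := ((O_pi _ _).le w).sol
  have c1 : 𝐙 (𝐎 {p} K) ≤ 𝐍 W := norm_of_cent (cent_mono inf_le_right le_rfl w)
  have c2 : 𝐙 (𝐎 {q} K) ≤ 𝐍 W := norm_of_cent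
    (cent_mono (O_compl_cent_O {p} K) (by rw [O_pair k.pi e]; exact inf_le_left) w)
  have j := h.join hW w1 sW n x (h.join hW w1 sW n (iv_Z (iv_O k.toIv {p})) (iv_Z (iv_O k.toIv {q})) c1 c2)
    b (sup_le c1 c2)
  obtain ⟨L, l, hl⟩ := exists_mxI j
  rw [← h.bender e k k1 k2 l (sol _ k.toIv) (sol _ l.toIv) (le_sup_left.trans (le_sup_right.trans hl))
    (le_sup_right.trans (le_sup_right.trans hl))]
  exact le_sup_left.trans hl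

theorem syl_inf (h : Mt r A G) (s : Syl p P G) (n : A ≤ 𝐍 P) (hK : K ≤ G) (nK : A ≤ 𝐍 K) :
    Syl p (K ⊓ P) K := by
  obtain ⟨S, hS, nS⟩ := exists_syl_inv nK (h.cop le_rfl hK) (Or.inl h.el.abel.sol) p
  rw [← hS.eq_of_le (le_inf hS.le (h.syl_le s n ⟨hS.le.trans hK, nS, hS.pi⟩)) inf_le_left s.pi.inf_right]
  exact hS

theorem cent_le_O (h : Mt r A G) (hK : K ≤ G) (nK : A ≤ 𝐍 K) (sK : Sol K) (t : Syl q T K) :
    T ⊓ 𝐂 (𝐎 {q}ᶜ K) ≤ 𝐎 {q} K := by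
  have l := (h.plen hK nK sK q).le_O2 t.le t.pi
  have n1 : O2 {q}ᶜ {q} K ⊓ 𝐂 (𝐎 {q}ᶜ K) ⊴ K :=
    ⟨inf_le_left.trans (O2_le _ _ _), norm_inf_cent (O2_normal _ _ _).norm (O_normal _ _).norm⟩
  have s1 := (t.of_le l (O2_le _ _ _)).inf_normal (n1.of_le inf_le_left (O2_le _ _ _))
  have d := ((npc_O2 q K).mono inf_le_left).sdprod s1
  have e := s1.O_eq (d.sup.ge.trans (sup_le (norm_of_cent' (cent_mono inf_le_right
    (inf_le_right.trans le_rfl |>.trans le_rfl) (O_le_O_of_normal n1 _))) (le_norm_self _)))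
  exact (le_inf inf_le_left (inf_le_inf_right _ l)).trans (e.ge.trans (O_le_O_of_normal n1 _))

end Mt

/-- a pair of non-permuting invariant Sylow subgroups -/
structure Pr {Γ : Type*} [Group Γ] (r p q : ℕ) (A G P Q : Subgroup Γ) : Prop extends Mt r A G where
  ne : p ≠ q
  sP : Syl p P G
  nP : A ≤ 𝐍 P
  sQ : Syl q Q G
  nQ : A ≤ 𝐍 Q
  np : ∀ K, Iv A G {p, q} K → P ≤ K → ¬ Q ≤ K

namespace Pr
variable {Γ : Type*} [Group Γ] [Finite Γ] {r p q : ℕ} {π : Set ℕ}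
  {A G T U W X Y L P Q K : Subgroup Γ}
open Mt

theorem symm (h : Pr r p q A G P Q) : Pr r q p A G Q P :=
  ⟨h.toMt, h.ne.symm, h.sQ, h.nQ, h.sP, h.nP, fun K k a b => h.np K (iv_pair_comm k) b a⟩

theorem iP (h : Pr r p q A G P Q) : Iv A G {p} P := ⟨h.sP.le, h.nP, h.sP.pi⟩

theorem iQ (h : Pr r p q A G P Q) : Iv A G {q} Q := ⟨h.sQ.le, h.nQ, h.sQ.pi⟩

theorem p1 (h : Pr r p q A G P Q) : P ≠ ⊥ := fun e => h.np Q (iv_right h.iQ) (e ▸ bot_le) le_rfl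

theorem sol (h : Pr r p q A G P Q) (L : Subgroup Γ) (l : Iv A G {p, q} L) : Sol L := by
  by_cases e : L = ⊥
  · exact e ▸ nil_bot.sol
  · exact (h.sim' L l.le e (fun e' => h.np L l (e' ▸ h.sP.le) (e' ▸ h.sQ.le)) l.n).mono
      (le_inf l.le (le_norm_self _))

theorem not_norm (h : Pr r p q A G P Q) : ¬ Q ≤ 𝐍 P := fun c =>
  h.np _ ⟨sup_le h.sP.le h.sQ.le, norm_sup h.nP h.nQ,
    (iv_left h.iP).pi.sup (iv_right h.iQ).pi (Or.inr c)⟩ le_sup_left le_sup_right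

theorem of_cent (h : Pr r p q A G P Q) (k : MxI A G {p, q} K) (c : K ⊓ P ≤ 𝐂 (𝐎 {q} K)) :
    K ≤ 𝐍 P ∨ K ≤ 𝐍 Q := by
  have s := h.syl_inf h.sP h.nP k.le k.n
  have a := h.cent_le_O k.le k.n (h.sol K k.toIv) s
  rw [O_pair k.pi h.ne] at a
  have e : 𝐎 {p} K = K ⊓ P := le_antisymm s.O_le ((le_inf le_rfl c).trans a)
  have n : K ≤ 𝐍 (K ⊓ P) := e ▸ (O_normal _ _).norm
  by_cases b : K ⊓ P = ⊥
  · right
    rw [b] at s
    refine (h.syl_le h.sQ h.nQ ⟨k.le, k.n, fun t ht hd => ?_⟩).trans (le_norm_self _)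
    rcases k.pi t ht hd with rfl | rfl
    · exact (s.pi'_of_eq_bot t ht hd rfl).elim
    · rfl
  · left
    have i := iv_inf k.toIv h.nP
    have := h.le_mx k i.le b s.pi.sol i.n n (iv_left (iv_inf h.iP (i.n.trans (le_norm_self _)))) inf_le_right
    rwa [h.sP.pi.nil.eq_of_inf_norm_le inf_le_right (le_inf this inf_le_left)] at n

theorem fill (h : Pr r p q A G P Q) (k : MxI A G {p, q} K) (k1 : 𝐎 {p} K ≠ ⊥) (k2 : 𝐎 {q} K ≠ ⊥)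
    (x : Elem r 1 X A) (c : ¬ K ⊓ Q ⊓ 𝐂 X ≤ 𝐂 (𝐎 {p} K)) (y : Elem r 1 Y A) (e : Y ≠ X)
    (u : Iv A G {p, q} U) (uY : U ≤ 𝐂 Y) : U ≤ K := by
  have io : Iv A G {p} (𝐎 {p} K) := ⟨(O_le _ _).trans k.le, le_norm_O _ k.n, O_pi _ _⟩
  have it : Iv A G {p}ᶜ (K ⊓ Q ⊓ 𝐂 X) := h.inv_cent
    ⟨inf_le_left.trans k.le, norm_inf k.n h.nQ, h.sQ.pi.inf_right.of_single_ne h.ne.symm⟩ x.le
  have w1 : 𝐎 {p} K ⊓ 𝐂 Y ≠ ⊥ := fun f => c (h.kl io it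
    ((inf_le_left.trans inf_le_left).trans (O_normal _ _).norm) x y e.symm inf_le_right (f ▸ bot_le))
  exact h.loc h.ne h.sol k k1 k2 inf_le_left w1 (h.inv_cent io y.le).n u
    (norm_of_cent ((h.ab Y y).cent (le_inf u.le uY) (inf_le_inf_right _ io.le)))

theorem half (h : Pr r p q A G P Q) (k : MxI A G {p, q} K) (k1 : 𝐎 {p} K ≠ ⊥) (k2 : 𝐎 {q} K ≠ ⊥)
    (x : Elem r 1 X A) (f : ∀ Y, Elem r 1 Y A → Y ≠ X → ∀ U, Iv A G {p, q} U → U ≤ 𝐂 Y → U ≤ K) :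
    Q ≤ K := by
  have fq := fun Y y e => f Y y e _ (iv_right (h.inv_cent h.iQ y.le)) inf_le_right
  by_cases c : ∃ Y, Elem r 1 Y A ∧ Y ≠ X ∧ ¬ K ⊓ Q ⊓ 𝐂 Y ≤ 𝐂 (𝐎 {p} K)
  · obtain ⟨Y, y, e, c⟩ := c
    refine h.le_of h.sQ.le h.nQ fun Z z => ?_
    by_cases e' : Z = X
    · exact h.fill k k1 k2 y c z (e' ▸ e.symm) (iv_right (h.inv_cent h.iQ z.le)) inf_le_right
    · exact fq Z z e'
  · push Not at c
    have s := h.syl_inf h.sQ h.nQ k.le k.n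
    have a := h.cent_le_O k.le k.n (h.sol K k.toIv) s
    rw [O_pair (iv_pair_comm k.toIv).pi h.ne.symm] at a
    have d : ⁅Q, X⁆ ≤ 𝐎 {q} K := h.gen h.iQ x fun Y y e => by
      have l : Q ⊓ 𝐂 Y ≤ K ⊓ Q ⊓ 𝐂 Y := le_inf (le_inf (fq Y y e) inf_le_left) inf_le_right
      exact (le_inf (l.trans inf_le_left) (l.trans (c Y y e))).trans a
    exact h.loc h.ne.symm h.symm.sol (pair_comm k) k2 k1 d
      (fun e => h.not_cent h.sQ h.nQ h.symm.p1 x (comm_eq_bot.1 e))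
      (norm_commutator h.nQ (h.el.abel.le_norm x.le)) (iv_left h.iQ) (norm_comm_left _ _)

theorem dich (h : Pr r p q A G P Q) (u : Iv A G {p, q} U) : U ≤ 𝐍 P ∨ U ≤ 𝐍 Q := by
  obtain ⟨K, k, l⟩ := exists_mxI u
  suffices K ≤ 𝐍 P ∨ K ≤ 𝐍 Q from this.imp l.trans l.trans
  by_cases c1 : K ⊓ P ≤ 𝐂 (𝐎 {q} K)
  · exact h.of_cent k c1
  by_cases c2 : K ⊓ Q ≤ 𝐂 (𝐎 {p} K)
  · exact (h.symm.of_cent (pair_comm k) c2).symm
  exfalso
  have k1 : 𝐎 {p} K ≠ ⊥ := fun e => c2 (by rw [e]; simp)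
  have k2 : 𝐎 {q} K ≠ ⊥ := fun e => c1 (by rw [e]; simp)
  obtain ⟨X, x, c⟩ : ∃ X, Elem r 1 X A ∧ ¬ K ⊓ Q ⊓ 𝐂 X ≤ 𝐂 (𝐎 {p} K) := by
    by_contra! f
    exact c2 (h.le_of (inf_le_left.trans k.le) (norm_inf k.n h.nQ) f)
  have f := fun Y y e U u uY => h.fill (Y := Y) (U := U) k k1 k2 x c y e u uY
  exact h.np K k.toIv (h.symm.half (pair_comm k) k2 k1 x fun Y y e U u => f Y y e U (iv_pair_comm u))
    (h.half k k1 k2 x f)

theorem dich' (h : Pr r p q A G P Q) (hW : W ≤ G) (w1 : W ≠ ⊥) (sW : Sol W) (n : A ≤ 𝐍 W)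
    (x : Iv A G {p} X) (y : Iv A G {q} Y) (a : X ≤ 𝐍 W) (b : Y ≤ 𝐍 W) : X ≤ 𝐍 Q ∨ Y ≤ 𝐍 P :=
  (h.dich (h.join hW w1 sW n (iv_left x) (iv_right y) a b)).symm.imp le_sup_left.trans le_sup_right.trans

theorem xy (h : Pr r p q A G P Q) (x : X ≤ P) (x' : X ≤ 𝐍 Q) (y : Y ≤ Q) (y' : Y ≤ 𝐍 P) : X ≤ 𝐂 Y :=
  comm_eq_bot.1 (eq_bot_mono (h.sP.pi.inf_eq_bot (h.sQ.pi.of_single_ne h.ne.symm))
    (le_inf ((commutator_mono x le_rfl).trans (comm_le_left y'))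
      ((commutator_mono le_rfl y).trans (comm_le_right x'))))

theorem act (h : Pr r p q A G P Q) (t : T ≤ Q) (nT : A ≤ 𝐍 T) (n : T ≤ 𝐍 P) (x : Elem r 1 X A) (c : T ≤ 𝐂 X)
    (nc : ¬ T ≤ 𝐂 P) (y : Elem r 1 Y A) (e : Y ≠ X) : ¬ P ⊓ 𝐂 Y ≤ 𝐍 Q := fun k =>
  nc (h.kl h.iP ⟨t.trans h.sQ.le, nT, (h.sQ.pi.le t).of_single_ne h.ne.symm⟩ n x y e.symm c
    (h.xy inf_le_left k t n))

theorem line (h : Pr r p q A G P Q) (x : Elem r 1 X A) : P ⊓ 𝐂 X ≤ 𝐍 Q ∨ Q ⊓ 𝐂 X ≤ 𝐍 P := by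
  have a := h.inv_cent h.iP x.le
  have b := h.inv_cent h.iQ x.le
  have c : P ⊓ 𝐂 X ≤ 𝐂 (Q ⊓ 𝐂 X) :=
    (h.ab X x).cent (inf_le_inf_right _ h.sP.le) (inf_le_inf_right _ h.sQ.le)
  exact (h.dich (U := (P ⊓ 𝐂 X) ⊔ (Q ⊓ 𝐂 X)) ⟨sup_le a.le b.le, norm_sup a.n b.n,
    (iv_left a).pi.sup (iv_right b).pi (Or.inl (norm_of_cent c))⟩).symm.imp le_sup_left.trans le_sup_right.trans

theorem claimA (h : Pr r p q A G P Q) (x : Elem r 1 X A) (c : ¬ P ⊓ 𝐂 X ≤ 𝐍 Q) : Q ⊓ 𝐂 X = ⊥ := by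
  by_contra w1
  have iW := h.inv_cent h.iQ x.le
  have zP : 𝐙 Q ≤ 𝐍 P := (h.dich' iW.le w1 iW.pi.sol iW.n (h.inv_cent h.iP x.le) (iv_Z h.iQ)
    (norm_of_cent ((h.ab X x).cent (inf_le_inf_right _ h.sP.le) (inf_le_inf_right _ h.sQ.le)))
    (norm_of_cent (cent_mono inf_le_right le_rfl inf_le_left))).resolve_left c
  have nc : ∀ T, T ≤ 𝐙 Q → T ≠ ⊥ → A ≤ 𝐍 T → ¬ T ≤ 𝐂 P := fun T t t1 nT k =>
    (h.dich' (t.trans (iv_Z h.iQ).le) t1 ((center_abel Q).mono t).sol nT h.iP h.iQ (norm_of_cent' k)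
      (norm_of_le_center (t.trans inf_le_right))).elim h.symm.not_norm h.not_norm
  have key : ∀ T Z, T ≤ 𝐙 Q → T ≠ ⊥ → A ≤ 𝐍 T → Elem r 1 Z A → T ≤ 𝐂 Z → ∀ Y, Elem r 1 Y A → Y ≠ Z →
      Q ⊓ 𝐂 Y ≤ 𝐍 P := fun T Z t t1 nT z cz Y y e =>
    (h.line y).resolve_left (h.act (t.trans inf_le_left) nT (t.trans zP) z cz (nc T t t1 nT) y e)
  obtain ⟨l, hl, l1⟩ := h.el.exists_cent_ne_bot (iv_Z h.iQ).n (h.pi.le (iv_Z h.iQ).le)
    (h.sQ.pi.center_ne_bot h.symm.p1)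
  have kl := key _ l inf_le_left l1 (h.inv_cent (iv_Z h.iQ) hl.le).n hl inf_le_right
  have nl := hl.le.trans h.nQ
  have iD := inv_comm h.iQ (h.el.abel.le_norm hl.le) nl
  have d1 : ⁅Q, l⁆ ≠ ⊥ := fun e => h.not_cent h.sQ h.nQ h.symm.p1 hl (comm_eq_bot.1 e)
  have iE := iv_inf iD (iv_Z h.iQ).n
  obtain ⟨m, hm, m1⟩ := h.el.exists_cent_ne_bot iE.n (h.pi.le iE.le)
    (h.sQ.pi.nil.inf_center_ne_bot ⟨comm_le_left nl, norm_comm_left _ _⟩ d1)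
  have iT := h.inv_cent iE hm.le
  have tZ : ⁅Q, l⁆ ⊓ 𝐙 Q ⊓ 𝐂 m ≤ 𝐙 Q := inf_le_left.trans inf_le_right
  obtain rfl : m = l := by
    by_contra e
    have km := key _ m tZ m1 iT.n hm inf_le_right
    refine h.not_norm (h.le_of h.sQ.le h.nQ fun Y y => ?_)
    by_cases e' : Y = l
    · exact km Y y (e' ▸ Ne.symm e)
    · exact kl Y y e'
  set T := ⁅Q, m⁆ ⊓ 𝐙 Q ⊓ 𝐂 m
  have nT : T ≤ 𝐍 P := tZ.trans zP
  have cp : (♯T).Coprime (♯P) := PiNat.coprime' (iT.pi.of_single_ne h.ne.symm) h.sP.pi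
  have iV := inv_comm h.iP iT.n nT
  have f : ⁅P, T⁆ ⊓ 𝐂 m ≤ 𝚽 ⁅P, T⁆ :=
    (le_inf inf_le_left ((h.ab m hm).cent (inf_le_inf_right _ iV.le) (le_inf iT.le inf_le_right))).trans
      (inf_cent_le_Phi iV.pi (norm_comm_right P T) (coprime_mono cp le_rfl (comm_le_left nT))
        (comm_comm_eq nT cp (Or.inr h.sP.pi.sol)).ge)
  have g : ⁅Q, m⁆ ≤ 𝐂 ⁅P, T⁆ := h.gen h.iQ hm fun Y y e => by
    have iY := h.inv_cent h.iQ y.le
    exact h.kl0 iV ⟨iY.le, iY.n, iY.pi.of_single_ne h.ne.symm⟩ (norm_commutator (kl Y y e)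
      (norm_of_le_center (cent_mono (tZ.trans inf_le_right) le_rfl inf_le_left))) y hm e inf_le_right f
  exact nc T tZ m1 iT.n (cent_of_comm_le_cent nT cp (cent_symm ((inf_le_left.trans inf_le_left).trans g)))

theorem claimB (h : Pr r p q A G P Q) : Q ⊓ 𝐍 P = ⊥ := by
  by_contra w1
  have iW := iv_inf h.iQ (h.nP.trans (le_norm_self P |> fun _ => le_norm_self (𝐍 P)))
  have nc : ¬ Q ⊓ 𝐍 P ≤ 𝐂 P := fun k => by
    have := (h.dich' iW.le w1 iW.pi.sol iW.n h.iP (iv_inf h.iQ (iW.n.trans (le_norm_self _)))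
      (norm_of_cent' k) inf_le_right).resolve_left h.symm.not_norm
    exact h.not_norm ((h.sQ.pi.nil.eq_of_inf_norm_le inf_le_left (le_inf inf_le_left this)).ge.trans inf_le_right)
  obtain ⟨X, x, c⟩ : ∃ X, Elem r 1 X A ∧ ¬ Q ⊓ 𝐍 P ⊓ 𝐂 X ≤ 𝐂 P := by
    by_contra! f
    exact nc (h.le_of iW.le iW.n f)
  refine h.not_cent h.sQ h.nQ h.symm.p1 x (h.le_of h.sQ.le h.nQ fun Y y => ?_)
  by_cases e : Y = X
  · exact e ▸ inf_le_right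
  · rw [h.claimA y (h.act (inf_le_left.trans inf_le_left) (h.inv_cent iW x.le).n
      (inf_le_left.trans inf_le_right) x inf_le_right c y e)]
    exact bot_le

theorem false_odd (h : Pr r p q A G P Q) (hp2 : p ≠ 2) : False := by
  obtain ⟨X, x, k⟩ := h.odd_act hp2 h.sP h.nP h.p1
  refine h.not_cent h.sQ h.nQ h.symm.p1 x (h.le_of h.sQ.le h.nQ fun Y y => ?_)
  by_cases e : Y = X
  · exact e ▸ inf_le_right
  · have : Q ⊓ 𝐂 Y ≤ 𝐍 P := by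
      by_contra c
      exact k Y y e (h.symm.claimA y c)
    exact (le_inf inf_le_left this).trans (h.claimB.le.trans bot_le)

theorem false' (h : Pr r p q A G P Q) : False := by
  by_cases e : p = 2
  · exact h.symm.false_odd fun e' => h.ne (e.trans e'.symm)
  · exact h.false_odd e

end Pr

theorem Mt.false' {Γ : Type*} [Group Γ] [Finite Γ] {r : ℕ} {A G : Subgroup Γ} (h : Mt r A G) : False := by
  have ex : ∀ p : Nat.Primes, ∃ S : Sylow (p : ℕ) G, A ≤ 𝐍 ((S : Subgroup G).map G.subtype) := fun p => by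
    have := Fact.mk p.2
    obtain ⟨P, s, n⟩ := exists_syl_inv h.n (h.cop le_rfl le_rfl) (Or.inl h.el.abel.sol) p
    obtain ⟨S, rfl⟩ := s.exists_sylow
    exact ⟨S, n⟩
  choose S hS using ex
  refine h.ns (Solv.isSolvable_of_permutable_sylow S fun p q => ?_)
  by_cases e : p = q
  · rw [e]
  have := Fact.mk p.2
  have := Fact.mk q.2
  have ne : (p : ℕ) ≠ q := fun k => e (Subtype.ext k)
  obtain ⟨K, k, a, b⟩ : ∃ K, Iv A G {(p : ℕ), (q : ℕ)} K ∧ (S p : Subgroup G).map G.subtype ≤ K ∧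
      (S q : Subgroup G).map G.subtype ≤ K := by
    by_contra! f
    exact Pr.false' ⟨h, ne, syl_sylow (S p), hS p, syl_sylow (S q), hS q, f⟩
  have s1 := (syl_sylow (S p)).of_le a k.le
  have s2 : Hall {(p : ℕ)}ᶜ _ K := ((syl_sylow (S q)).of_le b k.le).congr fun t ht hd => by
    rcases k.pi t ht hd with rfl | rfl
    · simp [ne]
    · simp [ne.symm]
  ext x
  constructor
  · rintro ⟨u, hu, v, hv, rfl⟩
    obtain ⟨_, ⟨c, hc, rfl⟩, _, ⟨d, hd, rfl⟩, f⟩ := s2.exists_mul s1.compl_compl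
      (K.mul_mem (a ⟨u, hu, rfl⟩) (b ⟨v, hv, rfl⟩))
    exact ⟨c, hc, d, hd, Subtype.ext f⟩
  · rintro ⟨u, hu, v, hv, rfl⟩
    obtain ⟨_, ⟨c, hc, rfl⟩, _, ⟨d, hd, rfl⟩, f⟩ := s1.exists_mul s2
      (K.mul_mem (b ⟨u, hu, rfl⟩) (a ⟨v, hv, rfl⟩))
    exact ⟨c, hc, d, hd, Subtype.ext f⟩

theorem sol_of_abel_cent_aux {r : ℕ} (n : ℕ) : ∀ {Γ : Type u} [Group Γ] [Finite Γ] {A G : Subgroup Γ},
    ♯G < n → Elem r 2 A A → A ≤ 𝐍 G → PiGrp {r}ᶜ G → (∀ X, Elem r 1 X A → Abel (G ⊓ 𝐂 X)) → Sol G := by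
  induction n with
  | zero => intro _ _ _ _ _ h; omega
  | succ n ih =>
    intro Γ _ _ A G hn el nG pi ab
    by_contra ns
    have sub : ∀ W, W < G → A ≤ 𝐍 W → Sol W := fun W w nW =>
      ih (by have := card_lt w; omega) el nW (pi.le w.le) fun X x => (ab X x).mono (inf_le_inf_right _ w.le)
    have sim : ∀ W, W ≤ G → W ≠ ⊥ → W ≠ G → A ≤ 𝐍 W → Sol (G ⊓ 𝐍 W) := fun W w w1 w2 nW => by
      by_cases e : G ≤ 𝐍 W
      · exfalso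
        have cp : (♯A).Coprime (♯W) := PiNat.coprime el.pi (pi.le w)
        have i : W ⊓ A = ⊥ := by rw [inf_comm]; exact BG.inf_eq_bot_of_coprime cp
        have c := card_qt_of_inf_bot nW i
        refine ns (Sol.of_qt (sub W (lt_of_le_of_ne w w2) nW) e (ih (A := qt W A)
          (by have := card_qt_lt ⟨w, e⟩ w1; omega) ⟨le_rfl, el.ab.qt W, by rw [c, el.log]⟩ (qt_norm _ nG)
          (pi.qt W) fun X x => ?_))
        have a : A ⊓ qp W X ≤ A := inf_le_left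
        have e1 : qt W (A ⊓ qp W X) = X := by rw [qt_inf_qp, inf_eq_right.2 x.le]
        have c1 := card_qt_of_inf_bot (a.trans nW) (eq_bot_mono i (inf_le_inf_left _ a))
        rw [← e1, ← qt_inf_cent' (a.trans nW) (a.trans nG) (coprime_mono cp a le_rfl)
          (Or.inl (el.abel.mono a).sol)]
        exact (ab _ ⟨a, el.ab.le a, by rw [← c1, e1, x.log]⟩).qt W
      · exact sub _ (lt_of_le_of_ne inf_le_left fun k => e (k.ge.trans inf_le_right))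
          (norm_inf nG (nW.trans (le_norm_self _)))
    refine Mt.false' ⟨el, nG, pi, ab, ?_, sim, ns⟩
    have c : G ≤ 𝐂 (G ⊓ 𝐂 A) := el.le_of_cent nG pi fun X x =>
      (ab X x).cent le_rfl (inf_le_inf_left _ (cent_anti x.le))
    by_contra w1
    by_cases e : G ⊓ 𝐂 A = G
    · rw [e] at c
      exact ns (Abel.sol c)
    · exact ns ((sim _ inf_le_left w1 e (norm_inf_cent nG (le_norm_self A))).mono
        (le_inf le_rfl (norm_of_cent c)))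

theorem sol_of_abel_cent {Γ : Type*} [Group Γ] [Finite Γ] {r : ℕ} {A G : Subgroup Γ} (el : Elem r 2 A A)
    (n : A ≤ 𝐍 G) (pi : PiGrp {r}ᶜ G) (ab : ∀ X, Elem r 1 X A → Abel (G ⊓ 𝐂 X)) : Sol G :=
  sol_of_abel_cent_aux _ (Nat.lt_succ_self _) el n pi ab

end CF.Fgs2
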