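import Cfsg.Agent.BlockB.Idem
import Cfsg.Agent.Clifford.Brauer
import Cfsg.Agent.Char.More

/-!
# Characters afforded over a subfield of `ℂ`; Brauer's splitting field theorem
-/

namespace CF.Fgs2

open Module MonoidAlgebra Cfsg CF.Char
open scoped ComplexConjugate

variable {G : Type*} [Group G] {K : Type} [Field K] {ι : K →+* ℂ}

/-- `ψ` is afforded by a representation over `K` -/
def KC (ι : K →+* ℂ) (ψ : G → ℂ) : Prop :=
  ∃ (n : ℕ) (τ : Representation K G (Fin n → K)), ∀ g, ι (τ.character g) = ψ g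

theorem KC.of_rep {V : Type*} [AddCommGroup V] [Module K V] [FiniteDimensional K V]
    (τ : Representation K G V) : KC ι fun g => ι (τ.character g) :=
  ⟨_, transport τ (Module.finBasis K V).equivFun, fun g => by
    rw [← Representation.char_iso (transportEquiv τ (Module.finBasis K V).equivFun)]⟩

theorem KC.exists_rep {ψ : G → ℂ} (h : KC ι ψ) : ∃ (n : ℕ) (σ : Representation ℂ G (Fin n → ℂ)),
    σ.character = ψ ∧ ∀ g i j, LinearMap.toMatrix' (σ g) i j ∈ Set.range ι := by
  obtain ⟨n, τ, h⟩ := h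
  let σ : G →* Module.End ℂ (Fin n → ℂ) :=
    (Matrix.toLinAlgEquiv' (R := ℂ) (n := Fin n)).toMonoidHom.comp
      ((ι.mapMatrix.toMonoidHom.comp
        (LinearMap.toMatrixAlgEquiv' (R := K) (n := Fin n)).toMonoidHom).comp τ)
  have hσ : ∀ g, LinearMap.toMatrix' (σ g) = (LinearMap.toMatrix' (τ g)).map ι := fun g =>
    LinearMap.toMatrix'_toLin' _
  refine ⟨n, σ, ?_, fun g i j => ?_⟩
  · ext g
    rw [← h, Representation.character, Representation.character,
      LinearMap.trace_eq_matrix_trace ℂ (Pi.basisFun ℂ (Fin n)),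
      LinearMap.trace_eq_matrix_trace K (Pi.basisFun K (Fin n)), LinearMap.toMatrix_eq_toMatrix',
      LinearMap.toMatrix_eq_toMatrix']
    change Matrix.trace (LinearMap.toMatrix' (σ g)) = _
    rw [hσ]
    simp [Matrix.trace]
  · change LinearMap.toMatrix' (σ g) i j ∈ _
    rw [hσ]
    exact ⟨_, rfl⟩

theorem KC.char {ψ : G → ℂ} (h : KC ι ψ) : IsCharacter G ψ := by
  obtain ⟨n, σ, h, -⟩ := h.exists_rep
  exact ⟨n, σ, h⟩

theorem KC.add {φ ψ : G → ℂ} (h : KC ι φ) (h' : KC ι ψ) : KC ι (φ + ψ) := by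
  obtain ⟨n, τ, h⟩ := h
  obtain ⟨n', τ', h'⟩ := h'
  convert KC.of_rep (ι := ι) (τ.prod τ') using 1
  ext g
  rw [character_prod, Pi.add_apply, Pi.add_apply, map_add, h, h']

theorem kc_zero : KC ι (0 : G → ℂ) :=
  ⟨0, 1, fun g => by simp [Representation.character]⟩

theorem KC.nsmul {ψ : G → ℂ} (h : KC ι ψ) (n : ℕ) : KC ι ((n : ℂ) • ψ) := by
  induction n with
  | zero => simpa using kc_zero
  | succ n ih => rw [Nat.cast_succ, add_smul, one_smul]; exact ih.add h

theorem kc_idem [Fintype G] {ε : K[G]} (hε : ε * ε = ε) :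
    KC ι fun g => ι (∑ x : G, ε.coeff (x⁻¹ * g⁻¹ * x)) := by
  classical
  let τ : Representation K G K[G] := (Algebra.lmul K K[G]).toMonoidHom.comp (MonoidAlgebra.of K G)
  have hτ : ∀ g a, τ g a = single g 1 * a := fun _ _ => rfl
  let U : Subrepresentation τ :=
    { toSubmodule := LinearMap.range (LinearMap.mulRight K ε)
      apply_mem_toSubmodule := by
        rintro g _ ⟨a, rfl⟩
        exact ⟨single g 1 * a, by simp [hτ, mul_assoc]⟩ }
  convert KC.of_rep (ι := ι) U.toRepresentation using 2 with g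
  congr 1
  have h1 : U.toRepresentation g = (LinearMap.mulRight K ε ∘ₗ τ g).restrict
      (p := U.toSubmodule) (q := U.toSubmodule) (fun x _ => ⟨_, rfl⟩) := by
    ext ⟨_, a, rfl⟩ : 2
    change single g 1 * (a * ε) = single g 1 * (a * ε) * ε
    rw [mul_assoc, mul_assoc, hε]
  rw [Representation.character, h1, LinearMap.trace_restrict_eq_of_forall_mem U.toSubmodule
    (LinearMap.mulRight K ε ∘ₗ τ g) (fun x => ⟨τ g x, rfl⟩), LinearMap.trace_eq_matrix_trace K (MonoidAlgebra.basis G K), Matrix.trace]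
  refine Finset.sum_congr rfl fun x _ => ?_
  rw [Matrix.diag_apply, LinearMap.toMatrix_apply, MonoidAlgebra.basis_apply]
  change _ = (single g (1 : K) * single x 1 * ε).coeff x
  rw [single_mul_single, coeff_single_mul_apply]
  simp [mul_assoc]

theorem kc_of_idem [Fintype G] {ε : ℂ[G]} (hε : ε * ε = ε) (h : ∀ g, ε.coeff g ∈ Set.range ι) :
    KC ι fun g => ∑ x : G, ε.coeff (x⁻¹ * g⁻¹ * x) := by
  choose f hf using h
  have h1 : mapRingHom G ι (BlockB.ofFun f) = ε := by ext g; simp [hf]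
  have h2 : Function.Injective (mapRingHom G ι) := MonoidAlgebra.map_injective _ ι.injective
  convert kc_idem (ι := ι) (ε := BlockB.ofFun f) (h2 (by rw [map_mul, h1, hε])) using 2 with g
  simp [hf]

theorem kc_deg_smul [Fintype G] {χ : G → ℂ} (hχ : IsIrrCharacter G χ)
    (h : ∀ g, χ g ∈ Set.range ι) : KC ι (χ 1 • χ) := by
  have h1 := kc_of_idem (ι := ι) (BlockB.eSet_mul_self {(⟨χ, hχ⟩ : IrrCharacter G)}) fun g => by
    rw [BlockB.coeff_eSet, BlockB.blockCoeff_singleton, ← irr_inv hχ]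
    obtain ⟨a, ha⟩ := h 1
    obtain ⟨b, hb⟩ := h g⁻¹
    exact ⟨(Nat.card G : K)⁻¹ * (a * b), by simp [ha, hb]⟩
  convert h1 using 2 with g
  have h2 : ∀ x : G, (BlockB.eSet {(⟨χ, hχ⟩ : IrrCharacter G)}).coeff (x⁻¹ * g⁻¹ * x) =
      (Nat.card G : ℂ)⁻¹ * (χ 1 * χ g) := fun x => by
    rw [BlockB.coeff_eSet, BlockB.blockCoeff_singleton]
    simp only
    rw [classFun_conj' (irr_isClassFunction hχ), ← irr_inv hχ, inv_inv]
  rw [Finset.sum_congr rfl fun x _ => h2 x, Finset.sum_const, Finset.card_univ, nsmul_eq_mul,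
    ← Nat.card_eq_fintype_card, ← mul_assoc, mul_inv_cancel₀ card_ne_zero_complex, one_mul]
  rfl

theorem kc_indFun [Fintype G] (E : Subgroup G) (lam : E →* ℂˣ)
    (h : ∀ x, (lam x : ℂ) ∈ Set.range ι) : KC ι (indFun E fun x => (lam x : ℂ)) := by
  classical
  let ε : ℂ[G] := BlockB.incl E (BlockB.eSet {(⟨_, irr_linear lam⟩ : IrrCharacter E)})
  have hε : ∀ g, ε.coeff g = (Nat.card E : ℂ)⁻¹ * extendByZero E (fun x => (lam x : ℂ)) g⁻¹ := by
    intro g
    by_cases hg : g ∈ E
    · rw [Clifford.extendByZero_of_mem _ _ (E.inv_mem hg)]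
      refine (BlockB.coeff_incl_coe E _ ⟨g, hg⟩).trans ?_
      rw [BlockB.coeff_eSet, BlockB.blockCoeff_singleton, ← irr_inv (irr_linear lam)]
      simp only [map_one, Units.val_one, one_mul]
      rfl
    · rw [Clifford.extendByZero_of_not_mem _ _ (by simpa using hg), mul_zero]
      exact BlockB.coeff_incl_of_notMem E _ hg
  have h1 := kc_of_idem (ι := ι) (ε := ε) (by rw [← map_mul, BlockB.eSet_mul_self]) fun g => by
    rw [hε]
    by_cases hg : g⁻¹ ∈ E
    · rw [Clifford.extendByZero_of_mem _ _ hg]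
      obtain ⟨a, ha⟩ := h ⟨_, hg⟩
      exact ⟨(Nat.card E : K)⁻¹ * a, by simp [ha]⟩
    · rw [Clifford.extendByZero_of_not_mem _ _ hg, mul_zero]
      exact ⟨0, map_zero _⟩
  convert h1 using 2 with g
  simp only [indFun, hε, Finset.mul_sum, mul_inv_rev, inv_inv, mul_assoc]

theorem eq_smul_of_add [Fintype G] {χ θ θ' : G → ℂ} (hχ : IsIrrCharacter G χ) {m : ℕ}
    (hθ : IsCharacter G θ) (hθ' : IsCharacter G θ') (h : θ + θ' = (m : ℂ) • χ) :
    ∃ a : ℕ, a ≤ m ∧ θ = (a : ℂ) • χ ∧ (a = m → θ' = 0) := by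
  obtain ⟨a, ha⟩ := inner_char_eq_nat hθ (irr_isCharacter hχ)
  obtain ⟨b, hb⟩ := inner_char_eq_nat hθ' (irr_isCharacter hχ)
  have h1 : a + b = m := by
    have := congrArg (classInner · χ) h
    simp only [Char.inner_add_left, Char.inner_smul_left, inner_irr_self hχ, ha, hb, mul_one] at this
    exact_mod_cast this
  have h2 : θ = (a : ℂ) • χ := by
    refine classFun_ext (char_isClassFunction hθ) (classFun_smul _ (irr_isClassFunction hχ))
      fun ξ hξ => ?_
    by_cases e : χ = ξ
    · rw [← e, ha, Char.inner_smul_left, inner_irr_self hχ, mul_one]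
    · obtain ⟨c, hc⟩ := inner_char_eq_nat hθ (irr_isCharacter hξ)
      obtain ⟨d, hd⟩ := inner_char_eq_nat hθ' (irr_isCharacter hξ)
      have := congrArg (classInner · ξ) h
      simp only [Char.inner_add_left, Char.inner_smul_left, inner_irr_ne hχ hξ e, hc, hd, mul_zero] at this
      have h3 : c + d = 0 := by exact_mod_cast this
      rw [Char.inner_smul_left, inner_irr_ne hχ hξ e, mul_zero, hc, show c = 0 by omega, Nat.cast_zero]
  refine ⟨a, by omega, h2, fun e => ?_⟩
  rw [h2, e] at h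
  exact add_eq_left.1 h

theorem exists_schur [Fintype G] {χ : G → ℂ} (hχ : IsIrrCharacter G χ)
    (h : ∀ g, χ g ∈ Set.range ι) : ∃ m : ℕ, KC ι ((m : ℂ) • χ) ∧
      ∀ ψ, KC ι ψ → ∃ k : ℕ, classInner ψ χ = m * k := by
  classical
  have : CharZero K := ι.charZero
  have hex : ∃ m : ℕ, 0 < m ∧ KC ι ((m : ℂ) • χ) := by
    obtain ⟨n, hn, e⟩ := irr_one_eq_nat hχ
    exact ⟨n, hn, e ▸ kc_deg_smul hχ h⟩
  obtain ⟨hm, n, S, hS⟩ := Nat.find_spec hex
  set m := Nat.find hex with hmd
  refine ⟨m, ⟨n, S, hS⟩, ?_⟩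
  have hG : (Nat.card G : K) ≠ 0 := Nat.cast_ne_zero.2 Nat.card_pos.ne'
  have : NeZero (Nat.card G : K) := ⟨hG⟩
  let _ : Invertible (Nat.card G : K) := invertibleOfNonzero hG
  suffices H : ∀ d : ℕ, ∀ ψ, KC ι ψ → ψ 1 = d → ∃ k : ℕ, classInner ψ χ = m * k by
    intro ψ hψ
    obtain ⟨d, hd⟩ := char_one_eq_nat hψ.char
    exact H d ψ hψ hd
  intro d
  induction d using Nat.strong_induction_on with
  | _ d ih =>
  intro ψ hψ hd
  by_cases h0 : classInner ψ χ = 0
  · exact ⟨0, by simp [h0]⟩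
  obtain ⟨n', W, hW⟩ := hψ
  have h1 : finrank K (Representation.IntertwiningMap S W) ≠ 0 := by
    intro h2
    have h3 := Representation.card_inv_mul_sum_char_mul_char_eq_finrank S W
    rw [h2, Nat.cast_zero] at h3
    have h4 := congrArg ι h3
    simp only [map_mul, map_inv₀, map_natCast, map_sum, hS, hW, map_zero] at h4
    rw [← inner_eq_sum_inv (gen_of_char (char_natCast_smul (irr_isCharacter hχ) m)),
      Char.inner_smul_right, mul_eq_zero] at h4
    rcases h4 with h4 | h4
    · simp [hm.ne'] at h4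
    · exact h0 h4
  obtain ⟨f, hf⟩ : ∃ f : Representation.IntertwiningMap S W, f ≠ 0 := by
    by_contra hh
    push Not at hh
    have : Subsingleton (Representation.IntertwiningMap S W) := ⟨fun a b => by rw [hh a, hh b]⟩
    exact h1 Module.finrank_zero_of_subsingleton
  obtain ⟨U, hU⟩ := exists_isCompl f.ker
  have hU' := isCompl_toSubmodule hU
  have h2 := character_eq_add_of_isCompl S _ _ hU'.symm
  obtain ⟨a, ha, e1, e2⟩ := eq_smul_of_add hχ (KC.of_rep (ι := ι) U.toRepresentation).char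
    (KC.of_rep (ι := ι) f.ker.toRepresentation).char (m := m) (by
      ext g
      rw [← hS, h2]
      simp)
  have ha0 : 0 < a := by
    refine Nat.pos_of_ne_zero fun h3 => hf ?_
    have h4 := congrFun e1 1
    simp only [Representation.char_one, map_natCast, h3, Nat.cast_zero, zero_smul, Pi.zero_apply,
      Nat.cast_eq_zero, Submodule.finrank_eq_zero] at h4
    rw [h4] at hU'
    have h5 := eq_top_of_isCompl_bot hU'
    ext1
    exact LinearMap.ker_eq_top.1 h5
  have ham : a = m := le_antisymm ha (Nat.find_min' hex ⟨ha0, e1 ▸ KC.of_rep _⟩)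
  have h3 : f.ker.toSubmodule = ⊥ := by
    have h4 := congrFun (e2 ham) 1
    simpa only [Representation.char_one, map_natCast, Pi.zero_apply,
      Nat.cast_eq_zero, Submodule.finrank_eq_zero] using h4
  have hinj : Function.Injective f.toLinearMap := LinearMap.ker_eq_bot.1 h3
  have e : S.Equiv f.range.toRepresentation :=
    Representation.Equiv.mk (LinearEquiv.ofInjective f.toLinearMap hinj) fun g => by
      refine LinearMap.ext fun v => ?_
      exact Subtype.ext (f.isIntertwining _ _ g v)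
  obtain ⟨W', hW'⟩ := exists_isCompl f.range
  have h4 := character_eq_add_of_isCompl W _ _ (isCompl_toSubmodule hW')
  have h5 : ψ = (m : ℂ) • χ + fun g => ι (W'.toRepresentation.character g) := by
    ext g
    rw [← hW, h4, ← Representation.char_iso e]
    simp [hS]
  have h6 := KC.of_rep (ι := ι) W'.toRepresentation
  obtain ⟨d', hd'⟩ := char_one_eq_nat h6.char
  obtain ⟨c, hc0, hc⟩ := irr_one_eq_nat hχ
  have h7 : d = m * c + d' := by
    have h8 := congrFun h5 1
    rw [hd, Pi.add_apply, hd', Pi.smul_apply, hc, smul_eq_mul] at h8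
    exact_mod_cast h8
  obtain ⟨k, hk⟩ := ih d' (by have := Nat.mul_pos hm hc0; omega) _ h6 hd'
  refine ⟨k + 1, ?_⟩
  rw [h5, Char.inner_add_left, hk, Char.inner_smul_left, inner_irr_self hχ]
  push_cast
  ring

/-- Brauer: a subfield containing all roots of unity of order dividing the exponent is a splitting
field. -/
theorem kc_of_char [Finite G] (hι : ∀ z : ℂ, z ^ Monoid.exponent G = 1 → z ∈ Set.range ι)
    {ψ : G → ℂ} (hψ : IsCharacter G ψ) : KC ι ψ := by
  have := Fintype.ofFinite G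
  have key : ∀ χ : G → ℂ, IsIrrCharacter G χ → KC ι χ := by
    intro χ hχ
    obtain ⟨m, h1, h2⟩ := exists_schur (ι := ι) hχ fun g => by
      obtain ⟨n, ω, -, h1, h2⟩ := char_exists_roots (irr_isCharacter hχ) g
      have h3 := h2 1
      simp only [zpow_one] at h3
      rw [h3]
      refine ι.fieldRange.sum_mem fun i _ => hι _ ?_
      obtain ⟨c, hc⟩ := Monoid.order_dvd_exponent g
      rw [hc, pow_mul, h1, one_pow]
    have h3 : ∀ θ ∈ Clifford.monSpan (Clifford.IsElem (G := G)),
        ∃ k : ℤ, classInner θ χ = m * k := by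
      intro θ hθ
      induction hθ using AddSubgroup.closure_induction with
      | mem x hx =>
        obtain ⟨E, lam, -, rfl⟩ := hx
        obtain ⟨k, hk⟩ := h2 _ (kc_indFun E lam fun x => hι _ (by
          have h4 : x ^ Monoid.exponent G = 1 := Subtype.ext (Monoid.pow_exponent_eq_one _)
          rw [← Units.val_pow_eq_pow_val, ← map_pow, h4, map_one, Units.val_one]))
        exact ⟨k, by simpa using hk⟩
      | zero => exact ⟨0, by simp [Char.inner_zero_left]⟩
      | add x y _ _ hx hy =>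
        obtain ⟨k, hk⟩ := hx
        obtain ⟨l, hl⟩ := hy
        exact ⟨k + l, by rw [Char.inner_add_left, hk, hl]; push_cast; ring⟩
      | neg x _ hx =>
        obtain ⟨k, hk⟩ := hx
        exact ⟨-k, by rw [Char.inner_neg_left, hk]; push_cast; ring⟩
    obtain ⟨k, hk⟩ := h3 χ (Clifford.mem_monSpan_isElem (gen_of_irr hχ))
    rw [inner_irr_self hχ] at hk
    have h4 : (m : ℤ) * k = 1 := by exact_mod_cast hk.symm
    have h5 : m = 1 := by exact_mod_cast Int.eq_one_of_mul_eq_one_right (Nat.cast_nonneg m) h4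
    simpa [h5] using h1
  obtain ⟨n, rfl⟩ := isCharacter_iff_exists_nat.1 hψ
  exact Finset.sum_induction _ (KC ι) (fun _ _ => KC.add) kc_zero fun χ _ => (key _ χ.2).nsmul _

end CF.Fgs2
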