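import Mathlib

/-! There are two primes in `(n/2, n]` for `n ≥ 11`. -/

open Nat

namespace CF.Fgs2

theorem prod_small_le (n : ℕ) (n_pos : 0 < n) :
    ∏ p ∈ Finset.range (2 * n / 3 + 1), p ^ (centralBinom n).factorization p ≤
      (2 * n) ^ sqrt (2 * n) * 4 ^ (2 * n / 3) := by
  have n2_pos : 1 ≤ 2 * n := mul_pos (zero_lt_two' ℕ) n_pos
  let S := {p ∈ Finset.range (2 * n / 3 + 1) | Nat.Prime p}
  let f x := x ^ n.centralBinom.factorization x
  have : ∏ x ∈ S, f x = ∏ x ∈ Finset.range (2 * n / 3 + 1), f x := by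
    refine Finset.prod_filter_of_ne fun p _ h => ?_
    contrapose h; dsimp only [f]
    rw [factorization_eq_zero_of_not_prime n.centralBinom h, _root_.pow_zero]
  rw [← this, ← Finset.prod_filter_mul_prod_filter_not S (· ≤ sqrt (2 * n))]
  apply mul_le_mul'
  · refine (Finset.prod_le_prod' fun p _ => (?_ : f p ≤ 2 * n)).trans ?_
    · exact pow_factorization_choose_le (mul_pos two_pos n_pos)
    have : (Finset.Icc 1 (sqrt (2 * n))).card = sqrt (2 * n) := by rw [card_Icc, Nat.add_sub_cancel]
    rw [Finset.prod_const]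
    refine pow_right_mono₀ n2_pos ((Finset.card_le_card fun x hx => ?_).trans this.le)
    obtain ⟨h1, h2⟩ := Finset.mem_filter.1 hx
    exact Finset.mem_Icc.mpr ⟨(Finset.mem_filter.1 h1).2.one_lt.le, h2⟩
  · refine le_trans ?_ (primorial_le_four_pow (2 * n / 3))
    refine (Finset.prod_le_prod' fun p hp => (?_ : f p ≤ p)).trans ?_
    · obtain ⟨h1, h2⟩ := Finset.mem_filter.1 hp
      refine (pow_right_mono₀ (Finset.mem_filter.1 h1).2.one_lt.le ?_).trans (pow_one p).le
      exact Nat.factorization_choose_le_one (sqrt_lt'.mp <| not_le.1 h2)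
    refine Finset.prod_le_prod_of_subset_of_one_le' (Finset.filter_subset _ _) ?_
    exact fun p hp _ => (Finset.mem_filter.1 hp).2.one_lt.le

theorem centralBinom_le_of_one (n : ℕ) (n_large : 2 < n) {r : ℕ} (hr : n < r)
    (one : ∀ p : ℕ, p.Prime → n < p → p ≤ 2 * n → p = r) :
    centralBinom n ≤ 2 * n * ((2 * n) ^ sqrt (2 * n) * 4 ^ (2 * n / 3)) := by
  classical
  have h1 : r ∉ Finset.range (2 * n / 3 + 1) := by
    rw [Finset.mem_range]; omega
  calc centralBinom n = ∏ p ∈ Finset.range (2 * n + 1), p ^ (centralBinom n).factorization p :=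
        n.prod_pow_factorization_centralBinom.symm
    _ ≤ ∏ p ∈ insert r (Finset.range (2 * n / 3 + 1)), p ^ (centralBinom n).factorization p := by
        rw [← Finset.prod_filter_ne_one]
        refine Finset.prod_le_prod_of_subset_of_one_le' (fun x hx => ?_) fun x _ _ => by
          by_cases hp : x.Prime
          · exact Nat.one_le_pow _ _ hp.pos
          · rw [factorization_eq_zero_of_not_prime _ hp, Nat.pow_zero]
        obtain ⟨hx, h⟩ := Finset.mem_filter.1 hx
        have hp : x.Prime := by
          by_contra hp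
          exact h (by rw [factorization_eq_zero_of_not_prime _ hp, Nat.pow_zero])
        rw [Finset.mem_range] at hx
        rw [Finset.mem_insert, Finset.mem_range]
        by_cases h2 : n < x
        · exact Or.inl (one x hp h2 (by omega))
        right
        by_contra h3
        exact h (by rw [factorization_centralBinom_of_two_mul_self_lt_three_mul n_large
          (by omega) (by omega), Nat.pow_zero])
    _ ≤ _ := by
        rw [Finset.prod_insert h1]
        exact mul_le_mul' (pow_factorization_choose_le (by omega)) (prod_small_le n (by omega))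

theorem pow_six_le (s : ℕ) (hs : 36 ≤ s) : (s + 1) ^ 6 ≤ 2 ^ (s - 2) := by
  induction s, hs using Nat.le_induction with
  | base => norm_num
  | succ s hs ih =>
    have h1 : 37 * (s + 1 + 1) ≤ 38 * (s + 1) := by omega
    have h2 := Nat.pow_le_pow_left h1 6
    rw [mul_pow, mul_pow] at h2
    rw [show s + 1 - 2 = s - 2 + 1 by omega, pow_succ 2]
    omega

theorem two_main_inequality {n : ℕ} (hn : 648 ≤ n) :
    n * (2 * n * ((2 * n) ^ sqrt (2 * n) * 4 ^ (2 * n / 3))) ≤ 4 ^ n := by
  set s := sqrt (2 * n) with hs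
  have s1 : 36 ≤ s := le_sqrt.2 (by omega)
  have s2 : 2 * n ≤ (s + 1) ^ 2 := (lt_succ_sqrt' _).le
  have s3 : s * s ≤ 2 * n := sqrt_le _
  have h1 : n * (2 * n * (2 * n) ^ s) ≤ (s + 1) ^ (2 * (s + 2)) := by
    calc n * (2 * n * (2 * n) ^ s) ≤ (2 * n) * (2 * n * (2 * n) ^ s) := by gcongr; omega
      _ = (2 * n) ^ (s + 2) := by ring
      _ ≤ ((s + 1) ^ 2) ^ (s + 2) := by gcongr
      _ = _ := by rw [← pow_mul]
  have h2 : ((s + 1) ^ (2 * (s + 2))) ^ 3 ≤ (4 ^ (n - 2 * n / 3)) ^ 3 := by
    calc ((s + 1) ^ (2 * (s + 2))) ^ 3 = ((s + 1) ^ 6) ^ (s + 2) := by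
          rw [← pow_mul, ← pow_mul]; congr 1; ring
      _ ≤ (2 ^ (s - 2)) ^ (s + 2) := Nat.pow_le_pow_left (pow_six_le s s1) _
      _ ≤ 2 ^ (2 * ((n - 2 * n / 3) * 3)) := by
          rw [← pow_mul]
          refine Nat.pow_le_pow_right two_pos ?_
          obtain ⟨t, ht⟩ := Nat.exists_eq_add_of_le (show 2 ≤ s by omega)
          have : (s - 2) * (s + 2) ≤ s * s := by
            rw [ht, Nat.add_sub_cancel_left]; nlinarith
          omega
      _ = _ := by rw [pow_mul, ← pow_mul 4]; rfl
  have h3 := h1.trans ((Nat.pow_le_pow_iff_left three_ne_zero).1 h2)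
  calc n * (2 * n * ((2 * n) ^ s * 4 ^ (2 * n / 3))) = n * (2 * n * (2 * n) ^ s) * 4 ^ (2 * n / 3) := by
        ring
    _ ≤ 4 ^ (n - 2 * n / 3) * 4 ^ (2 * n / 3) := by gcongr
    _ = 4 ^ n := by rw [← pow_add]; congr 1; omega

/-- two primes in `(n/2, n]` -/
theorem exists_two_primes {n : ℕ} (hn : 11 ≤ n) :
    ∃ p q : ℕ, p.Prime ∧ q.Prime ∧ p < q ∧ n < 2 * p ∧ q ≤ n := by
  by_cases h : 1296 ≤ n
  · obtain ⟨r, hr, r1, r2⟩ := Nat.exists_prime_lt_and_le_two_mul (n / 2) (by omega)
    by_contra hh
    have one : ∀ p : ℕ, p.Prime → n / 2 < p → p ≤ 2 * (n / 2) → p = r := by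
      intro p hp p1 p2
      by_contra ne
      rcases lt_or_gt_of_ne ne with l | l
      · exact hh ⟨p, r, hp, hr, l, by omega, by omega⟩
      · exact hh ⟨r, p, hr, hp, l, by omega, by omega⟩
    have h1 := Nat.four_pow_lt_mul_centralBinom (n / 2) (by omega)
    have h2 := centralBinom_le_of_one (n / 2) (by omega) r1 one
    exact absurd (h1.trans_le ((Nat.mul_le_mul_left _ h2).trans (two_main_inequality (by omega))))
      (lt_irrefl _)
  have key : ∀ p q : ℕ, p.Prime → q.Prime → p < q → q ≤ n → n < 2 * p →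
      ∃ p q : ℕ, p.Prime ∧ q.Prime ∧ p < q ∧ n < 2 * p ∧ q ≤ n :=
    fun p q a b c d e => ⟨p, q, a, b, c, e, d⟩
  by_cases h1 : n < 13
  · exact key 7 11 (by norm_num) (by norm_num) (by omega) (by omega) (by omega)
  by_cases h1 : n < 19
  · exact key 11 13 (by norm_num) (by norm_num) (by omega) (by omega) (by omega)
  by_cases h1 : n < 23
  · exact key 13 19 (by norm_num) (by norm_num) (by omega) (by omega) (by omega)
  by_cases h1 : n < 37
  · exact key 19 23 (by norm_num) (by norm_num) (by omega) (by omega) (by omega)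
  by_cases h1 : n < 43
  · exact key 23 37 (by norm_num) (by norm_num) (by omega) (by omega) (by omega)
  by_cases h1 : n < 73
  · exact key 37 43 (by norm_num) (by norm_num) (by omega) (by omega) (by omega)
  by_cases h1 : n < 83
  · exact key 43 73 (by norm_num) (by norm_num) (by omega) (by omega) (by omega)
  by_cases h1 : n < 139
  · exact key 73 83 (by norm_num) (by norm_num) (by omega) (by omega) (by omega)
  by_cases h1 : n < 163
  · exact key 83 139 (by norm_num) (by norm_num) (by omega) (by omega) (by omega)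
  by_cases h1 : n < 277
  · exact key 139 163 (by norm_num) (by norm_num) (by omega) (by omega) (by omega)
  by_cases h1 : n < 317
  · exact key 163 277 (by norm_num) (by norm_num) (by omega) (by omega) (by omega)
  by_cases h1 : n < 547
  · exact key 277 317 (by norm_num) (by norm_num) (by omega) (by omega) (by omega)
  by_cases h1 : n < 631
  · exact key 317 547 (by norm_num) (by norm_num) (by omega) (by omega) (by omega)
  by_cases h1 : n < 1093
  · exact key 547 631 (by norm_num) (by norm_num) (by omega) (by omega) (by omega)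
  by_cases h1 : n < 1259
  · exact key 631 1093 (by norm_num) (by norm_num) (by omega) (by omega) (by omega)
  · exact key 1093 1259 (by norm_num) (by norm_num) (by omega) (by omega) (by omega)

end CF.Fgs2
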